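import Cfsg.Agent.H26.Nsp1

/-! The double cover of `A₁₂` has no 27-dimensional representation of type `H5`. -/

set_option autoImplicit false
set_option linter.unusedSectionVars false

namespace H26.Nsp

open Equiv Equiv.Perm Module H25.AW H25.EF
universe u

variable {k V : Type} {X : Type u} [Field k] [IsAlgClosed k] [AddCommGroup V] [Module k V]
  [FiniteDimensional k V] [Group X] [Finite X] {ρ : X →* End k V} {φ : X →* Perm (Fin 12)}

/-- central case with lifts of 3-cycles, no irreducibility -/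
structure Tc (φ : X →* Perm (Fin 12)) (T : Fin 12 → Fin 12 → Fin 12 → X) : Prop where
  h : Hy φ
  ce : ∀ z, φ z = 1 → ∀ x, Commute z x
  lf : ∀ a b c, D3 a b c → Lf φ 3 (T a b c) (c3 a b c)

namespace Tc
variable {T : Fin 12 → Fin 12 → Fin 12 → X} (h : Tc φ T) {a b c : Fin 12}
include h

theorem st3 (d : D3 a b c) : St φ (c3 a b c) :=
  h.h.st h.ce (c3_three d).isCycle (c3_pow d) (Or.inl (by
    rw [(c3_three d).card_support]; decide))

theorem eq (d : D3 a b c) : φ (T a b c) = c3 a b c := (h.lf _ _ _ d).eq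

theorem uniq (d : D3 a b c) {t : X} (ht : Lf φ 3 t (c3 a b c)) : t = T a b c :=
  Lf.unique h.ce (by decide) (h.st3 d) (h.lf _ _ _ d) ht

theorem conj (d : D3 a b c) (u : X) : u * T a b c * u⁻¹ = T (φ u a) (φ u b) (φ u c) :=
  h.uniq (d.map _) (c3_conj (φ u) ▸ (h.lf _ _ _ d).conj u)

theorem conj' (d : D3 a b c) {u : X} {a' b' c' : Fin 12} (h1 : φ u a = a') (h2 : φ u b = b')
    (h3 : φ u c = c') : u * T a b c * u⁻¹ = T a' b' c' := by rw [h.conj d, h1, h2, h3]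

theorem rot (d : D3 a b c) : T b c a = T a b c := h.uniq d (c3_rot d ▸ h.lf _ _ _ d.rot)

theorem inv (d : D3 a b c) : (T a b c)⁻¹ = T a c b :=
  h.uniq d.sw (c3_inv (a := a) (b := b) (c := c) ▸ (h.lf _ _ _ d).inv)

theorem phi_w : φ (T 0 1 2 * T 0 1 3) = swap 0 2 * swap 1 3 := by
  rw [map_mul, h.eq (by decide), h.eq (by decide)]; decide

theorem phi_z : φ ((T 0 1 2 * T 0 1 3) ^ 2) = 1 := by rw [map_pow, h.phi_w]; decide

theorem exists_u : ∃ u, φ u = swap 0 1 * swap 2 3 ∧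
    u * (T 0 1 2 * T 0 1 3) * u⁻¹ = (T 0 1 2 * T 0 1 3)⁻¹ := by
  obtain ⟨u, hu⟩ := h.h.sj (swap 0 1 * swap 2 3) (by decide)
  refine ⟨u, hu, ?_⟩
  have e1 : u * T 0 1 2 * u⁻¹ = T 1 0 3 :=
    h.conj' (by decide) (by rw [hu]; decide) (by rw [hu]; decide) (by rw [hu]; decide)
  have e2 : u * T 0 1 3 * u⁻¹ = T 1 0 2 :=
    h.conj' (by decide) (by rw [hu]; decide) (by rw [hu]; decide) (by rw [hu]; decide)
  rw [mul_inv_rev, h.inv (by decide), h.inv (by decide), h.rot (a := 1) (b := 0) (c := 3) (by decide),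
    h.rot (a := 1) (b := 0) (c := 2) (by decide), ← e1, ← e2]
  group

theorem exists_D : ∃ D g : X, D ≠ 1 ∧ D ^ 5 = 1 ∧ g * D * g⁻¹ = D ^ 2 ∧
    ∀ y, (∀ a : Fin 12, 4 ≤ a → φ y a = a) → Commute y D := by
  let d : Perm (Fin 12) := swap 4 8 * swap 4 7 * swap 4 6 * swap 4 5
  let γ : Perm (Fin 12) := swap 5 7 * swap 5 8 * swap 5 6 * swap 9 10
  have s : d.support = {4, 5, 6, 7, 8} := by decide
  have d5 : d ^ 5 = 1 := by decide
  have cy : d.IsCycle := by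
    have : orderOf d = 5 := orderOf_eq_prime (hp := ⟨by norm_num⟩) d5 (by decide)
    exact isCycle_of_prime_order (by rw [this]; norm_num) (by rw [this, s]; decide)
  have st : St φ d := h.h.st h.ce cy d5 (Or.inl (by rw [s]; decide))
  obtain ⟨D, hD⟩ := h.h.exists_lf h.ce (m := 5) (c := d) (g := γ * γ) (by decide) (by decide) d5
    (by rw [Perm.sign_mul, Int.units_mul_self]) (Equiv.ext (by decide))
  obtain ⟨g, hg⟩ := h.h.sj γ⁻¹ (by decide)
  have e : g * D ^ 2 * g⁻¹ = D := Lf.conj_eq h.ce (by decide) st hD (hD.pow 2) (by rw [hg]; decide)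
  refine ⟨D, g⁻¹, fun e => ?_, hD.pw,
    (congrArg (fun x => g⁻¹ * x * g⁻¹⁻¹) e).symm.trans (by group), fun y hy => ?_⟩
  · have := hD.eq
    rw [e, map_one] at this
    exact absurd this (by decide)
  · refine st D y hD.eq (comm_fixS fun a ha => hy a ?_)
    rw [s] at ha
    revert a; decide

end Tc

theorem inj4 {α : Type*} {a b c d : α} (h1 : a ≠ b) (h2 : a ≠ c) (h3 : a ≠ d) (h4 : b ≠ c)
    (h5 : b ≠ d) (h6 : c ≠ d) : Function.Injective ![a, b, c, d] := fun i j h => by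
  fin_cases i <;> fin_cases j <;> first | rfl | contradiction | exact absurd h.symm ‹_›

theorem ring1 {R : Type*} [Ring R] {A : R} (a : A * A + A + 1 = 0) :
    (2 * A + 1) * (2 * A + 1) = -3 := by
  calc _ = 4 * (A * A + A + 1) - (1 + 1 + 1) := by noncomm_ring
    _ = _ := by rw [a, mul_zero, zero_sub]; norm_num

theorem ring2 {R : Type*} [Ring R] {A B : R} (a : A * A + A + 1 = 0) (b : B * B + B + 1 = 0)
    (c : A * B * (A * B) = -1) : (2 * A + 1) * (2 * B + 1) + (2 * B + 1) * (2 * A + 1) = -2 := by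
  have e1 : B * (B + 1) = -1 := by rw [mul_add, mul_one, eq_neg_iff_add_eq_zero, b]
  have e2 : A * (A + 1) = -1 := by rw [mul_add, mul_one, eq_neg_iff_add_eq_zero, a]
  have e3 : A * B * (A * B) * ((B + 1) * (A + 1)) = A * B := by
    calc _ = A * B * (A * (B * (B + 1)) * (A + 1)) := by noncomm_ring
      _ = -(A * B * (A * (A + 1))) := by rw [e1]; noncomm_ring
      _ = _ := by rw [e2]; noncomm_ring
  rw [c] at e3
  calc _ = 4 * (A * B - -1 * ((B + 1) * (A + 1))) - (1 + 1) := by noncomm_ring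
    _ = _ := by rw [e3, sub_self, mul_zero, zero_sub]; norm_num

theorem nsplit (h : Hy φ) (ce : ∀ z, φ z = 1 → ∀ x, Commute z x) (inj : ∀ x, ρ x = 1 → x = 1)
    (hV : finrank k V = 27) (h5 : H5 ρ) (c30 : (30 : k) ≠ 0) (T : Fin 12 → Fin 12 → Fin 12 → X)
    (lf : ∀ a b c, D3 a b c → Lf φ 3 (T a b c) (c3 a b c)) (hz : (T 0 1 2 * T 0 1 3) ^ 2 ≠ 1) :
    False := by
  have H : Tc φ T := ⟨h, ce, lf⟩
  have k2 : (2 : k) ≠ 0 := fun e => c30 (by linear_combination 15 * e)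
  have k3 : (3 : k) ≠ 0 := fun e => c30 (by linear_combination 10 * e)
  have k5 : (5 : k) ≠ 0 := fun e => c30 (by linear_combination 6 * e)
  obtain ⟨u, hu, huw⟩ := H.exists_u
  have hw := H.phi_w
  have hz1 := H.phi_z
  obtain ⟨z, hzd⟩ : ∃ z, z = (T 0 1 2 * T 0 1 3) ^ 2 := ⟨_, rfl⟩
  rw [← hzd] at hz hz1
  have zc := ce z hz1
  have zi : z⁻¹ = z := by
    have : u * z * u⁻¹ = z⁻¹ := by rw [hzd, ← conj_pow, huw, inv_pow]
    rw [← this, ← (zc u).eq, mul_inv_cancel_right]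
  have z2 : z * z = 1 := by nth_rewrite 1 [← zi]; exact inv_mul_cancel z
  have uw : u * (T 0 1 2 * T 0 1 3) = z * ((T 0 1 2 * T 0 1 3) * u) := by
    rw [← zi, hzd, mul_inv_eq_iff_eq_mul.1 huw, pow_two]; group
  -- eigenspaces of `z`
  have zv : ∀ v, ρ z (ρ z v) = v := fun v => by rw [rho_mul, z2, map_one, End.one_apply]
  let Vp := (ρ z).eigenspace 1
  let Vm := (ρ z).eigenspace (-1)
  have mp : ∀ {v}, v ∈ Vp ↔ ρ z v = v := fun {v} => by rw [End.mem_eigenspace_iff, one_smul]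
  have mm : ∀ {v}, v ∈ Vm ↔ ρ z v = -v := fun {v} => by rw [End.mem_eigenspace_iff, neg_one_smul]
  have ip : ∀ x, ∀ v ∈ Vp, ρ x v ∈ Vp := fun x v hv => eig_inv (zc x).symm hv
  have im : ∀ x, ∀ v ∈ Vm, ρ x v ∈ Vm := fun x v hv => eig_inv (zc x).symm hv
  have ng : ∀ v : V, v = -v → v = 0 := fun v e => by
    have : (2 : k) • v = 0 := by rw [two_smul]; nth_rewrite 1 [e]; exact neg_add_cancel v
    exact (smul_eq_zero.1 this).resolve_left k2
  have Vm0 : ∃ v ∈ Vm, v ≠ 0 := by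
    by_contra e
    push Not at e
    refine hz (inj z (LinearMap.ext fun v => ?_))
    have := e (v - ρ z v) (mm.2 (by rw [map_sub, zv, neg_sub]))
    exact (sub_eq_zero.1 this).symm
  have anti : ∀ v ∈ Vm, ρ u (ρ (T 0 1 2 * T 0 1 3) v) = -ρ (T 0 1 2 * T 0 1 3) (ρ u v) := fun v hv => by
    rw [rho_mul, uw, ← rho_mul, mm.1 (im _ _ hv), rho_mul]
  have fu : ∀ a : Fin 12, 4 ≤ a → φ u a = a := by rw [hu]; decide
  have fw : ∀ a : Fin 12, 4 ≤ a → φ (T 0 1 2 * T 0 1 3) a = a := by rw [hw]; decide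
  -- Step A
  have hA : 11 ≤ finrank k Vp := by
    rcases cov (ρ := ρ) h ce ∅ Vp (fun y _ => ip y) (by decide) (by
      have : ((12 - (∅ : Finset (Fin 12)).card : ℕ) : k) = 2 * 2 * 3 := by norm_num
      rw [this]; exact mul_ne_zero (mul_ne_zero k2 k2) k3) with e | e
    · rw [Finset.card_empty] at e; omega
    exfalso
    obtain ⟨D, g, D1, D5, hg, hD⟩ := H.exists_D
    have tr : ∀ v ∈ Vp, ρ D v = v := fun v hv => by
      have := e g (fun _ ha => absurd ha (by simp)) D (fun _ ha => absurd ha (by simp)) _ (ip g⁻¹ v hv)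
      rw [mul_inv_eq_iff_eq_mul.1 hg, rho_mul, rho_mul, mul_inv_cancel_right, mul_inv_cancel_right,
        pow_two, ← rho_mul] at this
      rw [← rho_inv (ρ := ρ) D (ρ D v), this, rho_inv]
    obtain ⟨ζ, ζ5, ζ1, -⟩ := exists_eig (ρ := ρ) (s := 5) (by exact_mod_cast k5) D5 fun e =>
      D1 (inj D (sub_eq_zero.1 (LinearMap.range_eq_bot.1 e)))
    have le : ∀ v ∈ (ρ D).eigenspace ζ, v ∈ Vm := fun v hv => by
      have a1 : v + ρ z v ∈ Vp := mp.2 (by rw [map_add, zv, add_comm])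
      have a2 := End.mem_eigenspace_iff.1 (add_mem hv (eig_inv (zc D) hv))
      rw [tr _ a1] at a2
      have a3 : (ζ - 1) • (v + ρ z v) = 0 := by rw [sub_smul, ← a2, one_smul, sub_self]
      have a4 := (smul_eq_zero.1 a3).resolve_left (sub_ne_zero.2 ζ1)
      exact mm.2 (eq_neg_of_add_eq_zero_right a4)
    exact odd_anti (ρ := ρ) k2 (fun v hv => eig_inv (hD u fu) hv) (fun v hv => eig_inv (hD _ fw) hv)
      (fun v hv => anti v (le v hv)) (by rw [(h5 D g D1 D5 hg).2 ζ ζ5 ζ1]; decide)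
  -- Step B
  have dt : D3 (9 : Fin 12) 10 11 := by decide
  have t3 : T 9 10 11 ^ 3 = 1 := (lf _ _ _ dt).pw
  have sp : (c3 (9 : Fin 12) 10 11).support = {9, 10, 11} := by decide
  have ct : ∀ y ∈ fixS φ {9, 10, 11}, Commute y (T 9 10 11) := fun y hy =>
    H.st3 dt _ y (H.eq dt) (comm_fixS (by rwa [sp]))
  have hB : ∀ η : k, ∀ v ∈ (ρ (T 9 10 11)).eigenspace η ⊓ Vm, v ≠ 0 →
      8 ≤ finrank k ((ρ (T 9 10 11)).eigenspace η ⊓ Vm : Submodule k V) := fun η v hv v0 => by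
    have c : ({9, 10, 11} : Finset (Fin 12)).card = 3 := by decide
    rcases cov (ρ := ρ) h ce {9, 10, 11} ((ρ (T 9 10 11)).eigenspace η ⊓ Vm)
      (fun y hy v hv => ⟨eig_inv (ct y hy) hv.1, im y v hv.2⟩) (by rw [c]) (by
      rw [c, show ((12 - 3 : ℕ) : k) = 3 * 3 by norm_num]; exact mul_ne_zero k3 k3) with e | e
    · rw [c] at e; omega
    exfalso
    have := e u (fun a ha => fu a (by revert a; decide)) _ (fun a ha => fw a (by revert a; decide)) v hv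
    rw [← rho_mul, anti v hv.2, rho_mul] at this
    exact rho_ne v0 _ (ng _ this.symm)
  obtain ⟨s, hs⟩ : ∃ s, s * T 0 1 2 * s⁻¹ = T 9 10 11 := by
    obtain ⟨σ, a0, a1, a2, a3, -⟩ := ex4 9 10 11 8 (by decide)
    obtain ⟨s, rfl⟩ := h.sj σ a0
    exact ⟨s, H.conj' (by decide) a1 a2 a3⟩
  have hp : ∀ i j : Fin 12, 2 ≤ i → 2 ≤ j → i ≠ j → ∃ r, r * T 0 1 2 * r⁻¹ = T 0 1 i ∧
      r * T 0 1 3 * r⁻¹ = T 0 1 j := fun i j hi hj hij => by
    obtain ⟨σ, a0, a1, a2, a3, a4⟩ := ex4 0 1 i j (by revert i j; decide)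
    obtain ⟨s, rfl⟩ := h.sj σ a0
    exact ⟨s, H.conj' (by decide) a1 a2 a3, H.conj' (by decide) a1 a2 a4⟩
  have cj : ∀ i : Fin 12, 2 ≤ i → ∃ r, r * T 9 10 11 * r⁻¹ = T 0 1 i := fun i hi => by
    obtain ⟨r, a, -⟩ := hp i (if i = 2 then 3 else 2) hi (by split_ifs <;> decide) (by
      split_ifs with e
      · rw [e]; decide
      · exact e)
    exact ⟨r * s⁻¹, by rw [← a, ← hs]; group⟩
  have nt : Wr ρ (T 9 10 11) ⊓ Vm ≠ ⊥ := fun e => by
    have a1 : ∀ v ∈ Vm, ρ (T 9 10 11) v = v := fun v hv => sub_eq_zero.1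
      ((Submodule.eq_bot_iff _).1 e _ ⟨sub_mem_Wr _ _, sub_mem (im _ _ hv) hv⟩)
    have a2 : ∀ i : Fin 12, 2 ≤ i → ∀ v ∈ Vm, ρ (T 0 1 i) v = v := fun i hi v hv => by
      obtain ⟨r, a⟩ := cj i hi
      rw [← a, ← rho_mul, ← rho_mul, a1 _ (im _ _ hv), rho_inv']
    obtain ⟨v, hv, v0⟩ := Vm0
    have a3 : ρ (T 0 1 2 * T 0 1 3) v = v := by
      rw [← rho_mul, a2 3 (by decide) v hv, a2 2 (by decide) v hv]
    have a4 := mm.1 hv
    rw [hzd, pow_two, ← rho_mul, a3, a3] at a4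
    exact v0 (ng v a4)
  obtain ⟨χ, v, hv, v0, hχ⟩ := exists_wt' (ρ := ρ) (fun _ : Unit => T 9 10 11)
    (fun _ _ => Commute.refl _) _ nt fun _ v hv => ⟨Wr_comm (Commute.refl _) hv.1, im _ _ hv.2⟩
  have tv : ρ (T 9 10 11) v = χ () • v := hχ ()
  generalize χ () = η at tv
  obtain ⟨η3, η1⟩ := ne_one_of (s := 3) (by exact_mod_cast k3) t3 v0 hv.1 tv
  obtain ⟨q, hq⟩ := h.sj (swap 9 10 * swap 0 1) (by decide)
  have qt : q * T 9 10 11 * q⁻¹ = T 9 10 11 ^ 2 := by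
    rw [H.conj' dt (a' := 10) (b' := 9) (c' := 11) (by rw [hq]; decide) (by rw [hq]; decide)
      (by rw [hq]; decide), ← H.rot (a := 10) (b := 9) (c := 11) (by decide), ← H.inv dt,
      inv_eq_iff_mul_eq_one, ← pow_succ', t3]
  have b1 := hB η v ⟨End.mem_eigenspace_iff.2 tv, hv.2⟩ v0
  have b2 := hB (η ^ 2) _ ⟨End.mem_eigenspace_iff.2 (conj_eig qt tv), im _ _ hv.2⟩ (rho_ne v0 _)
  have η0 : η ≠ 0 := fun e => by rw [e] at η3; norm_num at η3
  have η2 : η ^ 2 ≠ 1 := fun e => η1 (by rw [pow_succ, e, one_mul] at η3; exact η3)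
  have η4 : η ^ 2 ≠ η := fun e => η1 (mul_left_cancel₀ η0 (by rw [← pow_two, e, mul_one]))
  have hC : ∀ v ∈ Vm, ρ (T 9 10 11) v = v → v = 0 := fun v' hv' e => by
    by_contra v0'
    have b3 := hB 1 v' ⟨End.mem_eigenspace_iff.2 (by rw [e, one_smul]), hv'⟩ v0'
    let f : End k V := ρ (T 9 10 11) * (1 - ρ z)
    have c1 : ∀ a : k, ((ρ (T 9 10 11)).eigenspace a ⊓ Vm : Submodule k V) ≤ f.eigenspace (2 * a) :=
      fun a v hv => End.mem_eigenspace_iff.2 (by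
        rw [End.mul_apply, LinearMap.sub_apply, End.one_apply, mm.1 hv.2, sub_neg_eq_add, map_add,
          End.mem_eigenspace_iff.1 hv.1, two_mul, add_smul])
    have c2 : Vp ≤ f.eigenspace (2 * 0) := fun v hv => End.mem_eigenspace_iff.2 (by
      rw [End.mul_apply, LinearMap.sub_apply, End.one_apply, mp.1 hv, sub_self, map_zero, mul_zero,
        zero_smul])
    have c3 := sum_eig f (fun i => 2 * ![0, 1, η, η ^ 2] i) (fun i j hij => by
      have := mul_left_cancel₀ k2 hij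
      have η5 := pow_ne_zero 2 η0
      exact inj4 zero_ne_one η0.symm η5.symm η1.symm η2.symm η4.symm this) (U := ⊤) fun _ => le_top
    rw [finrank_top, hV, Fin.sum_univ_four] at c3
    have d0 := Submodule.finrank_mono c2
    have d1 := Submodule.finrank_mono (c1 1)
    have d2 := Submodule.finrank_mono (c1 η)
    have d3 := Submodule.finrank_mono (c1 (η ^ 2))
    have c4 : finrank k (f.eigenspace (2 * 0)) + finrank k (f.eigenspace (2 * 1)) +
      finrank k (f.eigenspace (2 * η)) + finrank k (f.eigenspace (2 * η ^ 2)) ≤ 27 := c3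
    omega
  let ρm := Representation.subrepresentation ρ Vm im
  have q0 : ρm (T 9 10 11) * ρm (T 9 10 11) + ρm (T 9 10 11) + 1 = 0 := by
    ext v
    refine hC (ρ (T 9 10 11) (ρ (T 9 10 11) v) + ρ (T 9 10 11) v + v)
      (add_mem (add_mem (im _ _ (im _ _ v.2)) (im _ _ v.2)) v.2) ?_
    have : ρ (T 9 10 11) (ρ (T 9 10 11) (ρ (T 9 10 11) v)) = v := by
      rw [rho_mul, rho_mul, ← pow_three', t3, map_one, End.one_apply]
    rw [map_add, map_add, this]; abel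
  have q1 : ∀ i : Fin 12, 2 ≤ i → ρm (T 0 1 i) * ρm (T 0 1 i) + ρm (T 0 1 i) + 1 = 0 := fun i hi => by
    obtain ⟨r, a⟩ := cj i hi
    have : ρm r * (ρm (T 9 10 11) * ρm (T 9 10 11) + ρm (T 9 10 11) + 1) * ρm r⁻¹ = 0 := by
      rw [q0, mul_zero, zero_mul]
    rw [← this, ← a]
    simp only [mul_add, add_mul, mul_one, ← map_mul, mul_inv_cancel, map_one]
    congr 3
    group
  have zm : ρm z = -1 := by
    ext v
    exact mm.1 v.2
  have q2 : ∀ i j : Fin 12, 2 ≤ i → 2 ≤ j → i ≠ j →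
      ρm (T 0 1 i) * ρm (T 0 1 j) * (ρm (T 0 1 i) * ρm (T 0 1 j)) = -1 := fun i j hi hj hij => by
    obtain ⟨r, a, b⟩ := hp i j hi hj hij
    rw [← zm, ← map_mul, ← map_mul, ← a, ← b]
    congr 1
    rw [← mul_inv_cancel_right z r, (zc r).eq, hzd, pow_two]
    group
  haveI : Nontrivial Vm := by
    obtain ⟨v, hv, v0⟩ := Vm0
    exact ⟨⟨v, hv⟩, 0, fun e => v0 (congrArg Subtype.val e)⟩
  obtain ⟨ι, ι2, ιi⟩ : ∃ ι : Fin 10 → Fin 12, (∀ i, 2 ≤ ι i) ∧ ∀ i j, i ≠ j → ι i ≠ ι j :=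
    ⟨fun i => i.succ.succ, by decide, by decide⟩
  have := cliff (k := k) (W := Vm) (by
      rw [show (6 : k) = 2 * 3 by norm_num]; exact mul_ne_zero k2 k3)
    (fun i => 2 * ρm (T 0 1 (ι i)) + 1) (fun i => ring1 (q1 _ (ι2 i))) fun i j hij =>
      ring2 (q1 _ (ι2 i)) (q1 _ (ι2 j)) (q2 _ _ (ι2 i) (ι2 j) (ιi i j hij))
  have := Submodule.finrank_le Vm
  omega

end H26.Nsp
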