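import Mathlib

/-!
The Feit–Higman theorem: the algebraic part (multiplicities of the representations of the
dihedral Hecke algebra).
-/

set_option autoImplicit false
set_option linter.unusedSectionVars false
set_option linter.style.haveILetI false

namespace H26

open Matrix Finset

theorem trace_quasi_idem {n : Type*} [Fintype n] [DecidableEq n] {E : Matrix n n ℂ} {c : ℂ}
    (h : E * E = c • E) : ∃ m : ℕ, E.trace = m * c := by
  by_cases hc : c = 0
  · refine ⟨0, ?_⟩
    rw [hc, zero_smul] at h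
    simpa using (Matrix.isNilpotent_trace_of_isNilpotent (M := E) ⟨2, by rw [pow_two, h]⟩).eq_zero
  · have h1 : IsIdempotentElem (Matrix.toLin' (c⁻¹ • E)) := by
      rw [IsIdempotentElem, Module.End.mul_eq_comp, ← Matrix.toLin'_mul, smul_mul_smul_comm, h,
        smul_smul, mul_assoc, inv_mul_cancel₀ hc, mul_one]
    have h2 := (LinearMap.IsIdempotentElem.isProj_range _ h1).trace
    rw [Matrix.trace_toLin'_eq, Matrix.trace_smul, smul_eq_mul] at h2
    exact ⟨_, by rw [← h2]; field_simp⟩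

theorem fh_core {n : Type*} [Fintype n] [DecidableEq n] {σ τ : Matrix n n ℂ} {s t x x' : ℂ} {k : ℕ}
    (hσ : σ * σ = (t - 1) • σ + t • (1 : Matrix n n ℂ))
    (hτ : τ * τ = (s - 1) • τ + s • (1 : Matrix n n ℂ))
    (hb : (τ * σ) ^ (k + 1) = (σ * τ) ^ (k + 1)) (h0 : σ.trace = 0)
    (h1 : ∀ i ≤ k, (τ * (σ * τ) ^ i).trace = 0) (h2 : ∀ i ≤ k, ((τ * σ) ^ (i + 1)).trace = 0)
    (hs : s ≠ 0) (ht : t ≠ 0) (ht1 : t + 1 ≠ 0) (hx : x * x' = s * t)
    (hd : x ^ (k + 1) = x' ^ (k + 1)) (hne : x ≠ x') :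
    ∃ m : ℕ, m * (2 * (k + 1) * ((s + t + (x + x')) * (1 + s * t - (x + x')))) =
      Fintype.card n * (4 * s * t - (x + x') ^ 2) := by
  have hx0 : x ≠ 0 := left_ne_zero_of_mul (hx ▸ mul_ne_zero hs ht)
  have hx1 : x' ≠ 0 := right_ne_zero_of_mul (hx ▸ mul_ne_zero hs ht)
  have hxx : x - x' ≠ 0 := sub_ne_zero.2 hne
  have hxx' : x' - x ≠ 0 := sub_ne_zero.2 hne.symm
  have htx : t = x * x' / s := by rw [hx]; field_simp
  obtain ⟨α, β, hα, hβ, hαβ⟩ : ∃ α β : ℂ, t * (α + β) = t + 1 ∧ α * x + β * x' = x + x' + s - 1 ∧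
      α * β * (t * (4 * s * t - (x + x') ^ 2)) = (s + t + (x + x')) * (1 + s * t - (x + x')) := by
    refine ⟨(x + s) * (x - 1) / (x * (x - x')), -((x' + s) * (x' - 1) / (x' * (x - x'))), ?_, ?_, ?_⟩
    · rw [htx]; field_simp; ring
    · field_simp; ring
    · rw [show 4 * s * t - (x + x') ^ 2 = -(x - x') ^ 2 by linear_combination -4 * hx, htx]
      field_simp; ring
  set a : Matrix n n ℂ := 1 + σ with ha
  have haσ : a * σ = t • a := by rw [ha, add_mul, one_mul, hσ]; module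
  have hσa : σ * a = t • a := by rw [ha, mul_add, mul_one, hσ]; module
  have haa : a * a = (t + 1) • a := by
    nth_rewrite 2 [ha]; rw [mul_add, mul_one, haσ]; module
  let C : ℕ → Matrix n n ℂ := fun i => Nat.casesOn i (t⁻¹ • a) fun j => a * τ * (σ * τ) ^ j
  have hC0 : C 0 = t⁻¹ • a := rfl
  have hC1 : ∀ j, C (j + 1) = a * τ * (σ * τ) ^ j := fun _ => rfl
  have hC2 : ∀ j, a * (σ * τ) ^ j = t • C j := fun j => by
    rcases j with _ | j
    · rw [hC0, smul_smul, mul_inv_cancel₀ ht, one_smul, pow_zero, mul_one]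
    · rw [hC1, pow_succ', ← mul_assoc, ← mul_assoc, haσ, smul_mul_assoc, smul_mul_assoc]
  have hC3 : ∀ j, a * τ * (τ * (σ * τ) ^ j) = (s - 1) • C (j + 1) + (s * t) • C j := fun j => by
    rw [← mul_assoc, mul_assoc a, hτ, mul_add, add_mul, mul_smul_comm, mul_smul_comm, smul_mul_assoc,
      smul_mul_assoc, mul_one, hC2, smul_smul, hC1]
  have hrec : ∀ j, a * τ * C (j + 1) = C (j + 2) + (s - 1) • C (j + 1) + (s * t) • C j := fun j => by
    rw [add_assoc, ← hC3, hC1, hC1]
    nth_rewrite 2 [ha]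
    rw [pow_succ']
    noncomm_ring
  have hC1' : C 1 = a * τ := (hC1 0).trans (by rw [pow_zero, mul_one])
  have hrec0 : a * τ * (C 0 * a) = ((t + 1) / t) • (C 1 * a) := by
    rw [hC0, hC1', smul_mul_assoc, haa, smul_smul, mul_smul_comm, div_eq_inv_mul]
  have hts : ∀ i, (τ * σ) ^ (i + 1) = τ * (σ * τ) ^ i * σ := fun i => by
    rw [pow_succ, ← mul_assoc, mul_pow_mul]
  have hfin : C (k + 2) * a = t • (((s - 1) • C (k + 1) + (s * t) • C k) * a) := by
    rw [← hC3, hC1, ← hb, ← mul_smul_comm, ← hσa, hts]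
    simp only [mul_assoc]
  let v : ℕ → ℂ := fun i => α * x ^ i + β * x' ^ i
  have hv : ∀ i, v i = α * x ^ i + β * x' ^ i := fun _ => rfl
  have hvrec : ∀ i, v (i + 2) = (x + x') * v (i + 1) - s * t * v i := fun i => by
    rw [hv, hv, hv, ← hx]; ring
  let u : ℕ → ℂ := fun i => t / (t + 1) * v i / (s * t) ^ i
  have hu : ∀ i, u i = t / (t + 1) * v i / (s * t) ^ i := fun _ => rfl
  have hurec : ∀ i, s * t * u (i + 2) = (x + x') * u (i + 1) - u i := fun i => by
    rw [hu, hu, hu, hvrec]; field_simp; ring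
  have hu0 : u 0 = 1 := by
    rw [hu, hv]; simp only [pow_zero, mul_one, div_one]; field_simp; exact hα
  set θ := x + x' + s - 1 with hθ
  have hu1 : s * t * u 1 = t / (t + 1) * θ := by
    rw [hu, hv, pow_one, pow_one, pow_one, hβ]; field_simp
  have hud : u (k + 1) = (x ^ (k + 1))⁻¹ := by
    rw [hu, hv, ← hx, mul_pow, ← hd]; field_simp; exact hα
  have hud' : (t + 1) * u k = u (k + 1) * (x + x' - t * (s - 1)) := by
    have e1 : x' ^ k = x ^ k * x / x' := by rw [← pow_succ, hd, pow_succ]; field_simp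
    rw [hud, hu, hv, ← hx, mul_pow, e1, pow_succ]
    field_simp
    linear_combination (x + x') * hα - t * hβ
  have tel : ∀ j, ∑ i ∈ range j, u (i + 1) • (a * τ * (C (i + 1) * a) - θ • (C (i + 1) * a)) =
      u j • (C (j + 1) * a) - (s * t * u (j + 1)) • (C j * a) + (s * t * u 1) • (C 0 * a) -
        C 1 * a := by
    intro j
    induction j with
    | zero => rw [hu0]; simp
    | succ j ih =>
      rw [sum_range_succ, ih, ← mul_assoc (a * τ), hrec, hurec, add_mul, add_mul, smul_mul_assoc,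
        smul_mul_assoc, hθ]
      module
  set E := (t / (t + 1)) • (C 0 * a) + ∑ i ∈ range k, u (i + 1) • (C (i + 1) * a) +
    (u (k + 1) / (t + 1)) • (C (k + 1) * a) with hE
  have hME : a * τ * E = θ • E := by
    rw [← sub_eq_zero]
    have := tel k
    simp only [smul_sub, sum_sub_distrib] at this
    rw [hE, mul_add, mul_add, smul_add, smul_add, mul_sum, smul_sum, mul_smul_comm, mul_smul_comm,
      hrec0, ← mul_assoc (a * τ) (C (k + 1)), hrec, add_mul _ ((s * t) • C k), add_mul (C (k + 2)),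
      hfin, add_mul ((s - 1) • C (k + 1))]
    simp only [mul_smul_comm, smul_mul_assoc, smul_comm θ (u _)]
    rw [sub_eq_iff_eq_add.1 this, hu1, show u k = u (k + 1) * (x + x' - t * (s - 1)) / (t + 1) by
      rw [← hud']; field_simp, hθ]
    match_scalars <;> field_simp <;> ring
  have haE : a * E = (t + 1) • E := by
    have : ∀ i, a * (C i * a) = (t + 1) • (C i * a) := fun i => by
      rcases i with _ | i
      · rw [hC0, smul_mul_assoc, mul_smul_comm, ← mul_assoc, haa, smul_mul_assoc, haa, smul_comm]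
      · rw [hC1]; simp only [← mul_assoc]; rw [haa]; simp only [smul_mul_assoc]
    rw [hE, mul_add, mul_add, smul_add, smul_add, mul_sum, smul_sum]
    simp only [mul_smul_comm, this, smul_comm (t + 1)]
  have hCE : ∀ i, C i * E = v i • E := by
    intro i
    induction i using Nat.twoStepInduction with
    | zero =>
      rw [hC0, smul_mul_assoc, haE, smul_smul, hv]
      congr 1
      simp only [pow_zero, mul_one]; field_simp; exact hα.symm
    | one => rw [hC1', hME, hv, pow_one, pow_one, hβ]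
    | more i ih1 ih2 =>
      have := congrArg (· * E) (hrec i)
      simp only [add_mul, smul_mul_assoc, mul_assoc (a * τ), ih1, ih2, mul_smul_comm, hME] at this
      rw [hvrec, ← sub_eq_zero, ← sub_eq_zero.2 this.symm, hθ]
      module
  have hsum : ∑ i ∈ range (k + 1), u i * v i = t / (t + 1) * (2 * (k + 1) * (α * β)) := by
    have e1 : ∀ i, u i * v i = t / (t + 1) *
        (α ^ 2 * (x / x') ^ i + β ^ 2 * (x' / x) ^ i + 2 * (α * β)) := fun i => by
      rw [hu, hv, ← hx, mul_pow, div_pow, div_pow]; field_simp; ring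
    have e2 : ∑ i ∈ range (k + 1), (x / x') ^ i = 0 := by
      rw [geom_sum_eq (by rwa [Ne, div_eq_one_iff_eq hx1]), div_pow, hd, div_self (pow_ne_zero _ hx1)]
      simp
    have e3 : ∑ i ∈ range (k + 1), (x' / x) ^ i = 0 := by
      rw [geom_sum_eq (by rw [Ne, div_eq_one_iff_eq hx0]; exact hne.symm), div_pow, hd,
        div_self (pow_ne_zero _ hx1)]
      simp
    simp only [e1, ← mul_sum, sum_add_distrib, e2, e3, sum_const, card_range, nsmul_eq_mul]
    push_cast; ring
  have hEE : E * E = (t * (2 * (k + 1) * (α * β))) • E := by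
    nth_rewrite 1 [hE]
    rw [add_mul, add_mul, sum_mul]
    simp only [smul_mul_assoc, mul_assoc _ a, haE, mul_smul_comm, hCE, smul_smul]
    rw [← sum_smul, ← add_smul, ← add_smul]
    congr 1
    rw [sum_range_succ', hu0] at hsum
    have e1 : ∑ i ∈ range k, u (i + 1) * ((t + 1) * v (i + 1)) =
        (t + 1) * ∑ i ∈ range k, u (i + 1) * v (i + 1) := by
      rw [mul_sum]; exact sum_congr rfl fun i _ => by ring
    have e2 : v 0 = (t + 1) / t := by
      rw [hv]; simp only [pow_zero, mul_one]; field_simp; linear_combination hα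
    have e3 : u (k + 1) * v (k + 1) = (t + 1) / t := by
      rw [hud, hv, ← hd]; field_simp; linear_combination hα
    rw [e1, eq_sub_of_add_eq hsum, e2, div_mul_eq_mul_div (u (k + 1)), mul_left_comm (u (k + 1)), e3]
    field_simp; ring
  have htr : E.trace = Fintype.card n := by
    have e1 : ∀ i ≤ k, (C (i + 1) * a).trace = 0 := fun i hi => by
      rw [hC1, mul_assoc a, Matrix.trace_mul_comm, ← mul_assoc, haa, smul_mul_assoc,
        Matrix.trace_smul, Matrix.trace_mul_comm, ha, mul_add, mul_one, Matrix.trace_add, h1 i hi,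
        ← hts, h2 i hi]
      simp
    rw [hE, Matrix.trace_add, Matrix.trace_add, Matrix.trace_sum, Matrix.trace_smul,
      Matrix.trace_smul, e1 k le_rfl, sum_eq_zero fun i hi => by
        rw [Matrix.trace_smul, e1 i (mem_range.1 hi).le, smul_zero], hC0, smul_mul_assoc, haa,
      smul_smul, Matrix.trace_smul, ha, Matrix.trace_add, h0, Matrix.trace_one]
    simp only [smul_eq_mul]
    field_simp; ring
  obtain ⟨m, hm⟩ := trace_quasi_idem hEE
  refine ⟨m, ?_⟩
  rw [← htr, hm, ← hαβ]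
  ring

theorem fh_rat {s t N n : ℕ} (hs : 2 ≤ s) (ht : 2 ≤ t) (hN : 0 < N) {y : ℝ} (hy : y ^ 2 < 4 * s * t)
    {m m' : ℕ} (h1 : m * (n * ((s + t + y) * (1 + s * t - y))) = N * (4 * s * t - y ^ 2))
    (h2 : m' * (n * ((s + t + -y) * (1 + s * t - -y))) = N * (4 * s * t - (-y) ^ 2)) :
    ∃ q : ℚ, y = q := by
  have hs' : (2 : ℝ) ≤ s := by exact_mod_cast hs
  have ht' : (2 : ℝ) ≤ t := by exact_mod_cast ht
  have hN' : (0 : ℝ) < N := by exact_mod_cast hN
  set μ : ℝ := m * n with hμ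
  set μ' : ℝ := m' * n with hμ'
  have e1 : μ * ((s + t + y) * (1 + s * t - y)) = N * (4 * s * t - y ^ 2) := by rw [← h1, hμ]; ring
  have e2 : μ' * ((s + t - y) * (1 + s * t + y)) = N * (4 * s * t - y ^ 2) := by
    rw [show y ^ 2 = (-y) ^ 2 by ring, ← h2, hμ']; ring
  have hpos : 0 < N * (4 * s * t - y ^ 2) := mul_pos hN' (by linarith)
  have hμ0 : μ ≠ 0 := by rintro h; rw [h, zero_mul] at e1; linarith
  have hμ1 : μ' ≠ 0 := by rintro h; rw [h, zero_mul] at e2; linarith
  have hD : ((s : ℝ) - 1) * (t - 1) * (N * (μ + μ') - 2 * μ * μ') ≠ 0 := by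
    refine mul_ne_zero (mul_ne_zero (by linarith) (by linarith)) fun h => ?_
    have : 2 * μ * μ' * ((s + t) * (1 + s * t) - 4 * s * t) = 0 := by
      linear_combination μ' * e1 + μ * e2 + (4 * s * t - y ^ 2) * h
    have h3 : (0 : ℝ) < (s + t) * (1 + s * t) - 4 * s * t := by
      nlinarith [mul_pos (show (0 : ℝ) < s by linarith) (show (0 : ℝ) < t by linarith),
        mul_nonneg (mul_nonneg (show (0 : ℝ) ≤ s by linarith) (show (0 : ℝ) ≤ t by linarith))
          (show (0 : ℝ) ≤ s + t - 4 by linarith)]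
    exact mul_ne_zero (mul_ne_zero (mul_ne_zero two_ne_zero hμ0) hμ1) h3.ne' this
  refine ⟨((4 * s * t * N - m * n * ((s + t) * (1 + s * t))) * (N - m' * n) -
    (4 * s * t * N - m' * n * ((s + t) * (1 + s * t))) * (N - m * n)) /
      ((s - 1) * (t - 1) * (N * (m * n + m' * n) - 2 * (m * n) * (m' * n))), ?_⟩
  push_cast
  rw [← hμ, ← hμ', eq_div_iff hD]
  linear_combination (N - μ') * e1 - (N - μ) * e2

theorem fh_niven {d : ℕ} (hd : 2 ≤ d) {c : ℕ} (hc : 0 < c)
    (h : ∃ q : ℚ, (2 * √c * Real.cos (Real.pi / d)) ^ 2 = q) : d = 2 ∨ d = 3 ∨ d = 4 ∨ d = 6 := by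
  obtain ⟨q, hq⟩ := h
  have hd' : (2 : ℚ) ≤ d := by exact_mod_cast hd
  have hc' : (0 : ℝ) < c := by exact_mod_cast hc
  have := niven_angle_div_pi_eq (r := 2 / d) ⟨q / (2 * c) - 1, by
    push_cast
    rw [← hq, show 2 / (d : ℝ) * Real.pi = 2 * (Real.pi / d) by ring, Real.cos_two_mul, mul_pow,
      mul_pow, Real.sq_sqrt hc'.le]
    field_simp⟩ ⟨by positivity, by rw [div_le_one (by linarith)]; exact hd'⟩
  have hd0 : (d : ℚ) ≠ 0 := by positivity
  simp only [Set.mem_insert_iff, Set.mem_singleton_iff] at this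
  rcases this with h | h | h | h | h <;> field_simp at h
  · simp at h
  all_goals (norm_cast at h; omega)

/-- real form of the multiplicity formula -/
theorem fh_real {n : Type*} [Fintype n] [DecidableEq n] {σ τ : Matrix n n ℂ} {s t : ℕ} {k : ℕ}
    (hσ : σ * σ = ((t : ℂ) - 1) • σ + (t : ℂ) • (1 : Matrix n n ℂ))
    (hτ : τ * τ = ((s : ℂ) - 1) • τ + (s : ℂ) • (1 : Matrix n n ℂ))
    (hb : (τ * σ) ^ (k + 1) = (σ * τ) ^ (k + 1)) (h0 : σ.trace = 0)
    (h1 : ∀ i ≤ k, (τ * (σ * τ) ^ i).trace = 0) (h2 : ∀ i ≤ k, ((τ * σ) ^ (i + 1)).trace = 0)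
    (hs : 0 < s) (ht : 0 < t) {j : ℕ} (hj : 0 < j) (hjk : j ≤ k) (ε : ℝ) (hε : ε * ε = 1) :
    (ε * (2 * √(s * t : ℕ) * Real.cos (j * Real.pi / (k + 1 : ℕ)))) ^ 2 < 4 * s * t ∧
    ∃ m : ℕ, (m : ℝ) * ((2 * (k + 1) : ℕ) *
      ((s + t + ε * (2 * √(s * t : ℕ) * Real.cos (j * Real.pi / (k + 1 : ℕ)))) *
      (1 + s * t - ε * (2 * √(s * t : ℕ) * Real.cos (j * Real.pi / (k + 1 : ℕ)))))) =
      Fintype.card n *
        (4 * s * t - (ε * (2 * √(s * t : ℕ) * Real.cos (j * Real.pi / (k + 1 : ℕ)))) ^ 2) := by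
  set φ : ℝ := j * Real.pi / (k + 1 : ℕ) with hφ
  set r : ℝ := √(s * t : ℕ) with hr
  have hst : (0 : ℝ) < (s * t : ℕ) := by exact_mod_cast Nat.mul_pos hs ht
  have hrr : r * r = s * t := by rw [hr, Real.mul_self_sqrt hst.le]; push_cast; rfl
  have hr0 : 0 < r := Real.sqrt_pos.2 hst
  have hsin : 0 < Real.sin φ := Real.sin_pos_of_pos_of_lt_pi (by positivity) (by
    rw [hφ, div_lt_iff₀ (by positivity), mul_comm]
    exact mul_lt_mul_of_pos_left (by exact_mod_cast Nat.lt_succ_of_le hjk) Real.pi_pos)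
  refine ⟨?_, ?_⟩
  · have := Real.sin_sq_add_cos_sq φ
    have h3 : (ε * (2 * r * Real.cos φ)) ^ 2 = 4 * (r * r) * Real.cos φ ^ 2 := by
      linear_combination (4 * r * r * Real.cos φ ^ 2) * hε
    rw [h3, mul_assoc 4 (s : ℝ), ← hrr]
    nlinarith [mul_pos (mul_pos hr0 hr0) (pow_pos hsin 2)]
  have hε' : (ε : ℂ) * ε = 1 := by exact_mod_cast hε
  have hrr' : (r : ℂ) * r = s * t := by exact_mod_cast hrr
  obtain ⟨m, hm⟩ := fh_core (x := ε * r * Complex.exp (φ * Complex.I))
    (x' := ε * r * Complex.exp (-φ * Complex.I)) hσ hτ hb h0 h1 h2 (by exact_mod_cast hs.ne')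
    (by exact_mod_cast ht.ne') (by exact_mod_cast (Nat.succ_pos t).ne') (by
      have : Complex.exp (φ * Complex.I) * Complex.exp (-φ * Complex.I) = 1 := by
        rw [← Complex.exp_add]; simp
      linear_combination (ε * ε * r * r) * this + (r * r) * hε' + hrr') (by
      rw [mul_pow, mul_pow _ (Complex.exp _), ← Complex.exp_nat_mul, ← Complex.exp_nat_mul]
      congr 1
      rw [Complex.exp_eq_exp_iff_exists_int]
      refine ⟨j, ?_⟩
      rw [hφ]; push_cast; field_simp; ring) (by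
      intro h
      have h3 : (ε : ℂ) * r ≠ 0 := mul_ne_zero (left_ne_zero_of_mul_eq_one hε')
        (by exact_mod_cast hr0.ne')
      have h4 := congrArg Complex.im (mul_left_cancel₀ h3 h)
      rw [Complex.exp_ofReal_mul_I_im, ← Complex.ofReal_neg, Complex.exp_ofReal_mul_I_im,
        Real.sin_neg] at h4
      linarith)
  refine ⟨m, ?_⟩
  have h3 : ε * r * Complex.exp (φ * Complex.I) + ε * r * Complex.exp (-φ * Complex.I) =
      ((ε * (2 * r * Real.cos φ) : ℝ) : ℂ) := by
    push_cast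
    rw [Complex.cos]; ring
  rw [h3] at hm
  exact_mod_cast hm

end H26
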