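import Cfsg.Agent.H26.FH1
import Cfsg.Agent.H26.BN
import Cfsg.Agent.H6.Dihedral

/-!
The Feit–Higman theorem for (B,N)-pairs of rank two.
-/

set_option autoImplicit false
set_option linter.unusedSectionVars false
set_option linter.style.haveILetI false

namespace H26

open Matrix Finset Cfsg

/-- alternating products -/
def altp {M : Type*} [Monoid M] (x y : M) : ℕ → M
  | 0 => 1
  | k + 1 => x * altp y x k

theorem altp_even {M : Type*} [Monoid M] (x y : M) (k : ℕ) : altp x y (2 * k) = (x * y) ^ k := by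
  induction k with
  | zero => simp [altp]
  | succ k ih => rw [pow_succ', ← ih, mul_assoc]; rfl

theorem altp_odd {M : Type*} [Monoid M] (x y : M) (k : ℕ) :
    altp x y (2 * k + 1) = x * (y * x) ^ k := by rw [← altp_even]; rfl

theorem altp_mulVec {n : Type*} [Fintype n] [DecidableEq n] {σ τ : Matrix n n ℂ} {s t : ℂ}
    {v : n → ℂ} (h1 : σ *ᵥ v = t • v) (h2 : τ *ᵥ v = s • v) (k : ℕ) :
    altp σ τ k *ᵥ v = altp t s k • v := by
  induction k generalizing σ τ s t with
  | zero => simp [altp]
  | succ k ih => rw [altp, altp, ← mulVec_mulVec, ih h2 h1, mulVec_smul, h1, smul_smul, mul_comm]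

theorem feit_higman {X : Type*} [Fintype X] [DecidableEq X] [Nonempty X] {σ τ : Matrix X X ℂ}
    {s t n : ℕ} (hσ : σ * σ = ((t : ℂ) - 1) • σ + (t : ℂ) • (1 : Matrix X X ℂ))
    (hτ : τ * τ = ((s : ℂ) - 1) • τ + (s : ℂ) • (1 : Matrix X X ℂ)) (hs : 2 ≤ s) (ht : 2 ≤ t)
    (h1 : σ *ᵥ 1 = (t : ℂ) • 1) (h2 : τ *ᵥ 1 = (s : ℂ) • 1) (hn : 2 ≤ n)
    (hb : altp σ τ n = altp τ σ n)
    (h3 : ∀ i, 1 ≤ i → i ≤ n → (altp σ τ i).trace = 0 ∧ (altp τ σ i).trace = 0) :
    n = 2 ∨ n = 3 ∨ n = 4 ∨ n = 6 ∨ n = 8 := by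
  have hN : 0 < Fintype.card X := Fintype.card_pos
  rcases Nat.even_or_odd' n with ⟨d, rfl | rfl⟩
  · obtain ⟨k, rfl⟩ : ∃ k, d = k + 1 := ⟨d - 1, by omega⟩
    rcases Nat.eq_zero_or_pos k with rfl | hk
    · simp
    have key : ∀ j, 0 < j → j ≤ k →
        ∃ q : ℚ, 2 * √(s * t : ℕ) * Real.cos (j * Real.pi / (k + 1 : ℕ)) = q := fun j hj hjk => by
      have aux := fun ε hε => fh_real hσ hτ (k := k) (by rw [← altp_even, ← altp_even, hb])
        (by simpa [altp] using (h3 1 le_rfl (by omega)).1)
        (fun i hi => by rw [← altp_odd]; exact (h3 _ (by omega) (by omega)).2)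
        (fun i hi => by rw [← altp_even]; exact (h3 _ (by omega) (by omega)).2)
        (by omega) (by omega) hj hjk ε hε
      obtain ⟨h4, m, hm⟩ := aux 1 (by simp)
      obtain ⟨-, m', hm'⟩ := aux (-1) (by simp)
      rw [one_mul] at h4 hm
      rw [neg_one_mul] at hm'
      exact fh_rat hs ht hN h4 hm hm'
    obtain ⟨q, hq⟩ := key 1 one_pos hk
    rw [Nat.cast_one, one_mul] at hq
    rcases fh_niven (d := k + 1) (by omega) (Nat.mul_pos (show 0 < s by omega) (show 0 < t by omega))
      ⟨q ^ 2, by rw [hq]; push_cast; rfl⟩ with h | h | h | h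
    · omega
    · omega
    · omega
    · exfalso
      obtain rfl : k = 5 := by omega
      obtain ⟨q', hq'⟩ := key 2 two_pos (by omega)
      have hr : 0 < √(s * t : ℕ) := Real.sqrt_pos.2 (by
        exact_mod_cast Nat.mul_pos (show 0 < s by omega) (show 0 < t by omega))
      rw [show ((2 : ℕ) : ℝ) * Real.pi / (5 + 1 : ℕ) = Real.pi / 3 by push_cast; ring,
        Real.cos_pi_div_three] at hq'
      rw [show ((5 + 1 : ℕ) : ℝ) = 6 by norm_num, Real.cos_pi_div_six] at hq
      refine Nat.prime_three.irrational_sqrt ⟨q / q', ?_⟩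
      push_cast
      rw [← hq, ← hq']
      field_simp
  · have hst : s = t := by
      obtain ⟨x⟩ := ‹Nonempty X›
      have e1 := altp_mulVec h1 h2 (2 * d + 1)
      rw [hb, altp_mulVec h2 h1, altp_odd, altp_odd, mul_comm (s : ℂ) t] at e1
      have e2 := congrFun e1 x
      simp only [Pi.smul_apply, Pi.one_apply, smul_eq_mul, mul_one] at e2
      exact_mod_cast mul_right_cancel₀ (pow_ne_zero d (mul_ne_zero
        (by exact_mod_cast (show t ≠ 0 by omega)) (by exact_mod_cast (show s ≠ 0 by omega)))) e2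
    subst hst
    let D : Matrix X X ℂ → Matrix X X ℂ → Matrix (X ⊕ X) (X ⊕ X) ℂ := fun p q => fromBlocks p 0 0 q
    let w : Matrix (X ⊕ X) (X ⊕ X) ℂ := fromBlocks 0 1 1 0
    have hww : w * w = 1 := by simp [w, fromBlocks_multiply]
    have hwD : ∀ p q, w * D p q = D q p * w := fun p q => by simp [w, D, fromBlocks_multiply]
    have hDD : ∀ p q p' q', D p q * D p' q' = D (p * p') (q * q') := fun p q p' q' => by
      simp [D, fromBlocks_multiply]
    have e1 : ∀ k, (D σ τ * w) ^ k = D (altp σ τ k) (altp τ σ k) * w ^ k := fun k => by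
      induction k with
      | zero => simp [D, altp]
      | succ k ih =>
        rw [pow_succ', ih, mul_assoc, ← mul_assoc w, hwD, mul_assoc, ← mul_assoc (D σ τ), hDD,
          ← pow_succ']; rfl
    have e2 : ∀ k, w * (D σ τ * w) ^ k = D (altp τ σ k) (altp σ τ k) * w ^ (k + 1) := fun k => by
      rw [e1, ← mul_assoc, hwD, mul_assoc, ← pow_succ']
    have e3 : ∀ k, (w * D σ τ) ^ k = D (altp τ σ k) (altp σ τ k) * w ^ k := fun k => by
      have : (w * D σ τ) ^ k = (w * D σ τ) ^ k * w * w := by rw [mul_assoc, hww, mul_one]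
      rw [this, mul_pow_mul, e2, mul_assoc, ← pow_succ, pow_succ, pow_succ, mul_assoc, hww, mul_one]
    have e4 : ∀ p q k, (D p q * w ^ k).trace = if Even k then p.trace + q.trace else 0 := by
      intro p q k
      rcases Nat.even_or_odd' k with ⟨j, rfl | rfl⟩
      · rw [pow_mul, pow_two, hww, one_pow, mul_one, if_pos (by simp)]
        simp [D, trace, Fintype.sum_sum_type]
      · rw [pow_succ, pow_mul, pow_two, hww, one_pow, one_mul, if_neg (by simp)]
        simp [D, w, fromBlocks_multiply, trace, Fintype.sum_sum_type]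
    obtain ⟨h4, m, hm⟩ := fh_real (σ := D σ τ) (τ := w) (s := 1) (t := s) (k := 2 * d)
      (by rw [hDD, hσ, hτ]; ext (i | i) (j | j) <;> simp [D, one_apply])
      (by simp [hww]) (by rw [e1, e3, hb])
      (by
        have := e4 σ τ 0
        have h5 := h3 1 le_rfl (by omega)
        simp only [altp, mul_one] at h5
        simpa [h5.1, h5.2] using this)
      (fun i hi => by
        rw [e2, e4]
        split_ifs with h
        · have h5 := h3 i (by rcases i with _ | i; simp at h; omega) (by omega)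
          rw [h5.1, h5.2, add_zero]
        · rfl)
      (fun i hi => by
        rw [e3, e4]
        split_ifs with h
        · have h5 := h3 (i + 1) (by omega) (by omega)
          rw [h5.1, h5.2, add_zero]
        · rfl) one_pos (by omega) one_pos (by omega) 1 (by simp)
    simp only [one_mul, Nat.cast_one, mul_one] at h4 hm
    have hs' : (2 : ℝ) ≤ s := by exact_mod_cast hs
    have hN' : (0 : ℝ) < Fintype.card (X ⊕ X) := by exact_mod_cast Fintype.card_pos
    generalize Fintype.card (X ⊕ X) = N at hm hN'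
    have := fh_niven (d := 2 * d + 1) (by omega) (show 0 < s by omega) (by
      generalize 2 * √(s : ℝ) * Real.cos (Real.pi / (2 * d + 1 : ℕ)) = y at h4 hm
      set μ : ℝ := m * (2 * (2 * d + 1) : ℕ) with hμ
      have e : y ^ 2 * (N - μ) = 4 * s * N - μ * (1 + s) ^ 2 := by
        rw [hμ]; linear_combination hm
      have hD : (N : ℝ) - μ ≠ 0 := fun h => by
        rw [h, ← sub_eq_zero.1 h] at e
        nlinarith [mul_pos hN' (pow_pos (show (0 : ℝ) < s - 1 by linarith) 2)]
      refine ⟨(4 * s * N - m * (2 * (2 * d + 1) : ℕ) * (1 + s) ^ 2) / (N - m * (2 * (2 * d + 1) : ℕ)), ?_⟩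
      rw [Rat.cast_div, eq_div_iff (by simpa [hμ] using hD)]
      simpa [hμ] using e)
    omega

theorem ExchSys.red_alt {S W : Type*} [Group W] (E : ExchSys S W) (a b : S) (k : ℕ)
    (hk : ∀ j, 0 < j → j < k → (E.σ a * E.σ b) ^ j ≠ 1 ∧ (E.σ b * E.σ a) ^ j ≠ 1) :
    Red E.σ (alt a b k) := by
  have htake : ∀ (k : ℕ) (a b : S) (l1 l2 : List S), alt a b k = l1 ++ l2 →
      l1 = alt a b l1.length := by
    intro k
    induction k with
    | zero => intro a b l1 l2 h; rw [(List.append_eq_nil_iff.1 h.symm).1]; rfl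
    | succ k ih =>
      intro a b l1 l2 h
      rcases l1 with _ | ⟨c, l1⟩
      · rfl
      · obtain ⟨rfl, h2⟩ := List.cons.inj h
        rw [List.length_cons, alt, ← ih b a l1 l2 h2]
  induction k generalizing a b with
  | zero => exact red_nil
  | succ k ih =>
    refine E.red_cons_of_pos (ih b a fun j h1 h2 => (hk j h1 (by omega)).symm) ?_
    by_contra h
    obtain ⟨l1, c, l2, h1, h2⟩ := E.exch a _ h
    have h3 := htake _ _ _ _ _ h1
    have h4 := htake _ _ _ (l1 ++ [c]) l2 (by rw [h1]; simp)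
    have h5 := congrArg List.length h1
    rw [length_alt, List.length_append, List.length_cons] at h5
    rw [List.length_append, List.length_singleton] at h4
    refine (hk (l1.length + 1) (by omega) (by omega)).1 ?_
    rw [← wp_alt_mul_inv E.sq, ← h4, alt, ← h3, wp_cons, h2, wp_append, wp_singleton,
      mul_inv_cancel]

namespace BN

variable {G : Type*} [Group G] {P : BNPair G}

/-- the Weyl distance relation on chambers -/
def Rel (w : W P) (x y : G ⧸ P.B) : Prop := x.out⁻¹ * y.out ∈ cell w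

theorem rel_mk {w : W P} {g h : G} : Rel w (g : G ⧸ P.B) h ↔ g⁻¹ * h ∈ cell w := by
  obtain ⟨b, hb⟩ := QuotientGroup.mk_out_eq_mul P.B g
  obtain ⟨c, hc⟩ := QuotientGroup.mk_out_eq_mul P.B h
  rw [Rel, hb, hc]
  refine ⟨fun e => ?_, fun e => ?_⟩
  · have := mul_mem_cell_right (mul_mem_cell_left b.2 e) (inv_mem c.2)
    simpa [mul_assoc] using this
  · have := mul_mem_cell_right (mul_mem_cell_left (inv_mem b.2) e) c.2
    simpa [mul_assoc] using this

theorem rel_one {x y : G ⧸ P.B} : Rel (1 : W P) x y ↔ x = y := by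
  induction x using QuotientGroup.induction_on
  induction y using QuotientGroup.induction_on
  rw [rel_mk, mem_cell_one, QuotientGroup.eq]

theorem Rel.unique {w w' : W P} {x y : G ⧸ P.B} (h : Rel w x y) (h' : Rel w' x y) : w = w' :=
  eq_of_mem_cell h h'

theorem Rel.symm {s : P.S} {x y : G ⧸ P.B} (h : Rel (sW P s) x y) : Rel (sW P s) y x := by
  have := inv_mem_cell h
  rwa [sW_inv, _root_.mul_inv_rev, inv_inv] at this

theorem Rel.trans {s : P.S} {w : W P} {x y z : G ⧸ P.B} (h : Rel (sW P s) x y) (h' : Rel w y z) :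
    Rel (sW P s * w) x z ∨ Rel w x z := by
  simpa [Rel, mul_assoc] using cell_mul_left h h'

theorem Rel.trans' {s : P.S} {w : W P} (hp : Pos s w) {x y z : G ⧸ P.B} (h : Rel (sW P s) x y)
    (h' : Rel w y z) : Rel (sW P s * w) x z := by
  simpa [Rel, mul_assoc] using hp _ h _ h'

theorem Rel.exists_mid {s : P.S} {w : W P} {x z : G ⧸ P.B} (h : Rel (sW P s * w) x z) :
    ∃ y, Rel (sW P s) x y ∧ Rel w y z := by
  induction x using QuotientGroup.induction_on with | H g => ?_
  induction z using QuotientGroup.induction_on with | H k => ?_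
  obtain ⟨n, hn, b, hb, b', hb', e⟩ := rel_mk.1 h
  refine ⟨(g * b * s : G), rel_mk.2 ?_, rel_mk.2 ⟨(sN P s)⁻¹ * n, ?_, 1, one_mem _, b', hb', ?_⟩⟩
  · simpa [mul_assoc] using mul_mem_cell_left hb (gen_mem_cell s)
  · rw [QuotientGroup.mk_mul, hn, QuotientGroup.mk_inv]
    exact inv_mul_cancel_left _ _
  · rw [_root_.mul_inv_rev, _root_.mul_inv_rev, mul_assoc, mul_assoc, e]
    simp [sN, mul_assoc]

theorem rel_smul {w : W P} (g : G) {x y : G ⧸ P.B} : Rel w (g • x) (g • y) ↔ Rel w x y := by
  induction x using QuotientGroup.induction_on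
  induction y using QuotientGroup.induction_on
  simp [rel_mk, mul_assoc]

open Classical in
/-- the matrix of a Bruhat cell -/
noncomputable def mat (w : W P) : Matrix (G ⧸ P.B) (G ⧸ P.B) ℂ :=
  fun x y => if Rel w x y then 1 else 0

variable [Fintype (G ⧸ P.B)] [DecidableEq (G ⧸ P.B)]

theorem mat_one : mat (1 : W P) = 1 := by
  ext x y; simp [mat, rel_one, one_apply]

theorem trace_mat {w : W P} (h : w ≠ 1) : (mat w).trace = 0 :=
  sum_eq_zero fun _ _ => if_neg fun e => h (e.unique (rel_one.2 rfl))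

theorem mat_mul {s : P.S} {w : W P} (hp : Pos s w) : mat (sW P s) * mat w = mat (sW P s * w) := by
  classical
  ext x z
  rw [mul_apply]
  by_cases h : Rel (sW P s * w) x z
  · obtain ⟨y, h1, h2⟩ := h.exists_mid
    rw [sum_eq_single y (fun y' _ hy => ?_) (by simp)]
    · simp [mat, h, h1, h2]
    · by_cases h3 : Rel (sW P s) x y'
      · by_cases h4 : Rel w y' z
        · exfalso
          rcases h3.symm.trans h1 with h5 | h5
          · rw [sW_sq, rel_one] at h5; exact hy h5
          · exact sW_ne_one s (by simpa using (h5.trans' hp h2).unique h4)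
        · simp [mat, h4]
      · simp [mat, h3]
  · rw [sum_eq_zero fun y _ => ?_]
    · simp [mat, h]
    · by_cases h3 : Rel (sW P s) x y
      · simp [mat, show ¬ Rel w y z from fun h4 => h (h3.trans' hp h4)]
      · simp [mat, h3]

theorem mat_wp (l : List P.S) (hl : Red (sW P) l) :
    (l.map fun s => mat (sW P s)).prod = mat (wp (sW P) l) := by
  induction l with
  | nil => simp [mat_one]
  | cons s l ih =>
    rw [List.map_cons, List.prod_cons, ih (hl.tail W_gen), wp_cons]
    exact mat_mul ((exchSys P).pos_of_red hl)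

theorem exists_param (s : P.S) : ∃ q : ℕ, 2 ≤ q ∧ mat (sW P s) *ᵥ 1 = (q : ℂ) • 1 ∧
    mat (sW P s) * mat (sW P s) = ((q : ℂ) - 1) • mat (sW P s) + (q : ℂ) • (1 : Matrix _ _ ℂ) := by
  classical
  let N : G ⧸ P.B → Finset (G ⧸ P.B) := fun x => univ.filter fun y => Rel (sW P s) x y
  have hN : ∀ x, (N x).card = (N (1 : G)).card := fun x => by
    induction x using QuotientGroup.induction_on with | H g => ?_
    refine (card_bijective _ (MulAction.bijective g) fun y => ?_).symm
    simp only [N, mem_filter, mem_univ, true_and]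
    rw [← rel_smul g]; simp
  have hne : ∀ x, ¬ Rel (sW P s) x x := fun x h => sW_ne_one s (h.unique (rel_one.2 rfl))
  refine ⟨(N (1 : G)).card, ?_, ?_, ?_⟩
  · obtain ⟨x, hx, y, hy, h⟩ := exists_mul_mem_cell_gen s
    refine one_lt_card.2 ⟨(x : G ⧸ P.B), by simpa [N, rel_mk] using hx, (x * y : G),
      by simpa [N, rel_mk] using h, fun e => ?_⟩
    refine hne (x : G) ?_
    nth_rewrite 2 [e]
    simpa [rel_mk] using hy
  · ext x
    simp [mulVec, dotProduct, mat, ← hN x, N]
  · ext x z
    have e : (mat (sW P s) * mat (sW P s)) x z =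
        (((N x).filter fun y => Rel (sW P s) y z).card : ℂ) := by
      rw [mul_apply, card_filter, sum_filter]
      push_cast
      exact sum_congr rfl fun y _ => by simp only [mat]; split_ifs <;> simp
    rw [e, ← hN x, Matrix.add_apply, Matrix.smul_apply, Matrix.smul_apply, one_apply, mat]
    by_cases h : x = z
    · subst h
      rw [filter_true_of_mem fun y hy => (mem_filter.1 hy).2.symm]
      simp [hne]
    by_cases h' : Rel (sW P s) x z
    · have : ((N x).filter fun y => Rel (sW P s) y z) = (N x).erase z := by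
        ext y
        simp only [N, mem_filter, mem_univ, true_and, mem_erase]
        refine ⟨fun h1 => ⟨fun e => hne z (e ▸ h1.2), h1.1⟩, fun h1 => ⟨h1.2, ?_⟩⟩
        refine (h1.2.symm.trans h').resolve_left fun h2 => h1.1 ?_
        rwa [sW_sq, rel_one] at h2
      rw [this, cast_card_erase_of_mem (by simpa [N] using h')]
      simp [h, h']
    · rw [filter_false_of_mem fun y hy h1 => ?_]
      · simp [h, h']
      · refine h' (((mem_filter.1 hy).2.trans h1).resolve_left fun h2 => h ?_)
        rwa [sW_sq, rel_one] at h2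

theorem altp_mat (a b : P.S) (k : ℕ) :
    altp (mat (sW P a)) (mat (sW P b)) k = ((alt a b k).map fun s => mat (sW P s)).prod := by
  induction k generalizing a b with
  | zero => rfl
  | succ k ih => rw [altp, ih]; rfl

omit [Fintype (G ⧸ P.B)] [DecidableEq (G ⧸ P.B)] in
/-- the Feit–Higman theorem -/
theorem orderOf_cases [Finite G] {a b : P.S} (hab : a ≠ b) :
    orderOf (sW P a * sW P b) ∈ ({2, 3, 4, 6, 8} : Set ℕ) := by
  classical
  letI := Fintype.ofFinite (G ⧸ P.B)
  obtain ⟨t, ht, h1, h2⟩ := exists_param a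
  obtain ⟨s, hs, h3, h4⟩ := exists_param b
  set n := orderOf (sW P a * sW P b) with hn
  have hinv : sW P b * sW P a = (sW P a * sW P b)⁻¹ := by rw [_root_.mul_inv_rev, sW_inv, sW_inv]
  have hk : ∀ j, 0 < j → j < n → (sW P a * sW P b) ^ j ≠ 1 ∧ (sW P b * sW P a) ^ j ≠ 1 :=
    fun j h1 h2 => by
      rw [hinv, inv_pow, Ne, Ne, inv_eq_one, and_self]
      exact pow_ne_one_of_lt_orderOf h1.ne' h2
  have hr : ∀ i ≤ n, Red (sW P) (alt a b i) ∧ Red (sW P) (alt b a i) := fun i hi =>
    ⟨(exchSys P).red_alt a b i fun j h1 h2 => hk j h1 (by omega),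
      (exchSys P).red_alt b a i fun j h1 h2 => (hk j h1 (by omega)).symm⟩
  have h0 : ∀ (l : List P.S), Red (sW P) l → l.length ≠ 0 → wp (sW P) l ≠ 1 := fun l hl h e => by
    rw [Red, e, len_one] at hl; exact h hl.symm
  have := feit_higman (n := n) h2 h4 hs ht h1 h3 (by
      have h5 := orderOf_pos (sW P a * sW P b)
      have h6 : n ≠ 1 := fun e => hab (sW_injective (by
        rw [hn, orderOf_eq_one_iff, mul_eq_one_iff_eq_inv, sW_inv] at e; exact e))
      omega) (by
      rw [altp_mat, altp_mat, mat_wp _ (hr n le_rfl).1, mat_wp _ (hr n le_rfl).2]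
      congr 1
      rw [← mul_inv_eq_one, wp_alt_mul_inv sW_sq, hn, pow_orderOf_eq_one])
    fun i h5 h6 => by
      rw [altp_mat, altp_mat, mat_wp _ (hr i h6).1, mat_wp _ (hr i h6).2]
      exact ⟨trace_mat (h0 _ (hr i h6).1 (by rw [length_alt]; omega)),
        trace_mat (h0 _ (hr i h6).2 (by rw [length_alt]; omega))⟩
  simpa using this

omit [Fintype (G ⧸ P.B)] [DecidableEq (G ⧸ P.B)] in
theorem card_W_two [Finite G] {a b : P.S} (hab : a ≠ b) (h : ∀ c, c = a ∨ c = b) :
    Nat.card (W P) = 2 * orderOf (sW P a * sW P b) := by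
  obtain ⟨e⟩ := H6.equiv_dihedral_of_top (a := sW P a * sW P b) (b := sW P a) rfl (sW_sq a)
    (by rw [_root_.mul_inv_rev, sW_inv, sW_inv, ← mul_assoc, sW_sq, one_mul]) (by
      intro hk
      have h1 : Commute (sW P a * sW P b) (sW P a) := by
        obtain ⟨k, hk⟩ := hk
        nth_rewrite 2 [← hk]; exact Commute.zpow_right rfl k
      have h2 : (sW P a * sW P b) ^ 2 = 1 := by
        rw [pow_two, ← mul_assoc, h1.eq, ← mul_assoc, sW_sq, one_mul, sW_sq]
      obtain ⟨k, hk⟩ := (Submonoid.mem_powers_iff _ _).1 (mem_powers_iff_mem_zpowers.2 hk)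
      rw [pow_eq_pow_mod k h2] at hk
      rcases Nat.mod_two_eq_zero_or_one k with e | e <;> rw [e] at hk
      · exact sW_ne_one a (by simpa using hk.symm)
      · exact sW_ne_one b (by simpa using hk)) (by
      rw [← H6.closure_pair_eq (sW_sq a), eq_top_iff]
      intro w _
      obtain ⟨l, rfl⟩ := W_gen w
      induction l with
      | nil => exact one_mem _
      | cons c l ih =>
        rw [wp_cons]
        refine mul_mem (Subgroup.subset_closure ?_) (ih trivial)
        rcases h c with rfl | rfl <;> simp)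
  rw [Nat.card_congr e.toEquiv, DihedralGroup.nat_card]

end BN

end H26
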