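import Cfsg.Agent.H10.Compl

/-! Final counting step for the mixed case of the `(S₃, S₃)` amalgam bound. -/

set_option autoImplicit false
set_option linter.unusedSectionVars false

namespace H26.Gam

open H10 Cfsg MulAction
open scoped commutatorElement

variable {G : Type*} [Group G]

/-- `H⟨x⟩` for `x` normalizing `H` with `x² ∈ H` -/
def ext2 (H : Subgroup G) (x : G) (hn : ∀ h ∈ H, x⁻¹ * h * x ∈ H) (hs : x * x ∈ H) :
    Subgroup G where
  carrier := {y | y ∈ H ∨ x * y ∈ H}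
  one_mem' := Or.inl H.one_mem
  mul_mem' := by
    have hn' : ∀ h ∈ H, x * h * x⁻¹ ∈ H := fun h hh => by
      have := H.mul_mem (H.mul_mem hs (hn h hh)) (H.inv_mem hs)
      convert this using 1; group
    rintro a b (ha | ha) (hb | hb)
    · exact Or.inl (H.mul_mem ha hb)
    · right
      have := H.mul_mem (hn' a ha) hb
      convert this using 1; group
    · right
      have := H.mul_mem ha hb
      convert this using 1; group
    · left
      have := H.mul_mem (H.mul_mem (hn _ ha) (H.inv_mem hs)) hb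
      convert this using 1; group
  inv_mem' := by
    rintro a (ha | ha)
    · exact Or.inl (H.inv_mem ha)
    · right
      have := H.mul_mem hs (hn _ (H.mul_mem (H.inv_mem ha) hs))
      have h2 := H.mul_mem this (H.inv_mem hs)
      convert h2 using 1; group

section
variable {H : Subgroup G} {x : G} {hn : ∀ h ∈ H, x⁻¹ * h * x ∈ H} {hs : x * x ∈ H}

theorem mem_ext2 {y : G} : y ∈ ext2 H x hn hs ↔ y ∈ H ∨ x * y ∈ H := Iff.rfl

theorem le_ext2 : H ≤ ext2 H x hn hs := fun _ h => Or.inl h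

theorem self_mem_ext2 : x ∈ ext2 H x hn hs := Or.inr hs

theorem ext2_le {K : Subgroup G} (h1 : H ≤ K) (h2 : x ∈ K) : ext2 H x hn hs ≤ K := by
  rintro y (hy | hy)
  · exact h1 hy
  · simpa using K.mul_mem (K.inv_mem h2) (h1 hy)

theorem card_ext2 [Finite G] : Nat.card (ext2 H x hn hs) ≤ 2 * Nat.card H := by
  classical
  have : Nat.card (ext2 H x hn hs) ≤ Nat.card (H ⊕ H) := by
    refine Nat.card_le_card_of_injective (fun y => if h : (y : G) ∈ H then Sum.inl ⟨y, h⟩ else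
      Sum.inr ⟨x * y, y.2.resolve_left h⟩) ?_
    intro y z e
    by_cases hy : (y : G) ∈ H <;> by_cases hz : (z : G) ∈ H <;> simp [hy, hz] at e
    · exact e
    · exact e
  rw [Nat.card_sum] at this
  omega

end

theorem core [Finite G] {Q Z : Subgroup G} {g w1 w2 w3 : G} (hQ : IsPGroup 2 Q) (hZQ : Z ≤ Q)
    (hc : ∀ z ∈ Z, ∀ q ∈ Q, q * z = z * q) (hz2 : ∀ z ∈ Z, z * z = 1) (hZ : Nat.card Z ≤ 4)
    (gQ' : ∀ q ∈ Q, g * q * g⁻¹ ∈ Q) (gZ' : ∀ q ∈ Z, g * q * g⁻¹ ∈ Z) (g3 : g * g * g = 1)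
    (e2 : g * w1 * g⁻¹ = w2) (e3 : g * w2 * g⁻¹ = w3) (q1 : w1 ∈ Q) (s1 : w1 * w1 ∈ Z)
    (c1 : ∀ q ∈ Q, ⁅q, w1⁆ ∈ Z) (c2 : ∀ q ∈ Q, ⁅q, w2⁆ ∈ Z) (c3 : ∀ q ∈ Q, ⁅q, w3⁆ ∈ Z)
    (F : ∀ y ∈ Q, y ∈ CC(Q) → y * y = 1 → g * y = y * g → y = 1)
    (hW : ∀ K : Subgroup G, Z ≤ K → w1 ∈ K → w2 ∈ K → w3 ∈ K → ∀ q ∈ Q, q⁻¹ * (g * q * g⁻¹) ∈ K) :
    Nat.card Q ≤ 64 := by
  have gi : g⁻¹ = g * g := by rw [eq_comm, ← mul_eq_one_iff_eq_inv, g3]
  have e1 : g * w3 * g⁻¹ = w1 := by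
    rw [← e3, ← e2]
    calc g * (g * (g * w1 * g⁻¹) * g⁻¹) * g⁻¹ = (g * g * g) * w1 * (g * g * g)⁻¹ := by group
      _ = w1 := by rw [g3]; group
  have q2 : w2 ∈ Q := e2 ▸ gQ' _ q1
  have q3 : w3 ∈ Q := e3 ▸ gQ' _ q2
  have s2 : w2 * w2 ∈ Z := by
    have := gZ' _ s1
    rw [← e2]; convert this using 1; group
  have s3 : w3 * w3 ∈ Z := by
    have := gZ' _ s2
    rw [← e3]; convert this using 1; group
  have cz : ∀ z ∈ Z, ∀ q ∈ Q, q * z * q⁻¹ = z := fun z hz q hq => by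
    rw [hc z hz q hq]; group
  -- the preimage of the centre of `Q / Z`
  let U : Subgroup G :=
    { carrier := {x | x ∈ Q ∧ ∀ q ∈ Q, ⁅q, x⁆ ∈ Z}
      one_mem' := ⟨Q.one_mem, by simp⟩
      mul_mem' := by
        rintro a b ⟨a1, a2⟩ ⟨b1, b2⟩
        refine ⟨Q.mul_mem a1 b1, fun q hq => ?_⟩
        have : ⁅q, a * b⁆ = ⁅q, a⁆ * (a * ⁅q, b⁆ * a⁻¹) := by
          simp only [commutatorElement_def]; group
        rw [this, cz _ (b2 q hq) a a1]
        exact Z.mul_mem (a2 q hq) (b2 q hq)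
      inv_mem' := by
        rintro a ⟨a1, a2⟩
        refine ⟨Q.inv_mem a1, fun q hq => ?_⟩
        have : ⁅q, a⁻¹⁆ = a⁻¹ * ⁅q, a⁆⁻¹ * a⁻¹⁻¹ := by
          simp only [commutatorElement_def]; group
        rw [this, cz _ (Z.inv_mem (a2 q hq)) _ (Q.inv_mem a1)]
        exact Z.inv_mem (a2 q hq) }
  have ZU : Z ≤ U := fun z hz => ⟨hZQ hz, fun q hq => by
    rw [commutatorElement_eq_one_iff_mul_comm.2 (hc z hz q hq)]; exact Z.one_mem⟩
  have u1 : w1 ∈ U := ⟨q1, c1⟩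
  have u2 : w2 ∈ U := ⟨q2, c2⟩
  have u3 : w3 ∈ U := ⟨q3, c3⟩
  have nrm : ∀ H : Subgroup G, Z ≤ H → H ≤ U → ∀ q ∈ Q, ∀ h ∈ H, q * h * q⁻¹ ∈ H := by
    intro H h1 h2 q hq h hh
    have := H.mul_mem (h1 ((h2 hh).2 q hq)) hh
    rw [commutatorElement_def] at this
    simpa using this
  have nrm' : ∀ H : Subgroup G, Z ≤ H → H ≤ U → ∀ q ∈ Q, ∀ h ∈ H, q⁻¹ * h * q ∈ H := by
    intro H h1 h2 q hq h hh
    simpa using nrm H h1 h2 q⁻¹ (Q.inv_mem hq) h hh
  have sq : ∀ a ∈ U, ∀ b ∈ U, a * a ∈ Z → b * b ∈ Z → (a * b) * (a * b) ∈ Z := by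
    intro a ha b hb sa sb
    have : (a * b) * (a * b) = (a * a) * ⁅a⁻¹, b⁆ * (b * b) := by
      simp only [commutatorElement_def]; group
    rw [this]
    exact Z.mul_mem (Z.mul_mem sa (hb.2 _ (Q.inv_mem ha.1))) sb
  have ua0 : w1 * w2 ∈ U := U.mul_mem u1 u2
  have ua1 : w2 * w3 ∈ U := U.mul_mem u2 u3
  let A1 := ext2 Z (w1 * w2) (nrm' Z le_rfl ZU _ ua0.1) (sq _ u1 _ u2 s1 s2)
  have A1U : A1 ≤ U := ext2_le ZU ua0
  have ZA1 : Z ≤ A1 := le_ext2
  let A0 := ext2 A1 (w2 * w3) (nrm' A1 ZA1 A1U _ ua1.1) (ZA1 (sq _ u2 _ u3 s2 s3))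
  have A0U : A0 ≤ U := ext2_le A1U ua1
  have ZA0 : Z ≤ A0 := ZA1.trans le_ext2
  have m0 : w1 * w2 ∈ A0 := (le_ext2 : A1 ≤ A0) self_mem_ext2
  have m1 : w2 * w3 ∈ A0 := self_mem_ext2
  have A0le : ∀ K : Subgroup G, Z ≤ K → w1 * w2 ∈ K → w2 * w3 ∈ K → A0 ≤ K :=
    fun K h1 h2 h3 => ext2_le (ext2_le h1 h2) h3
  have cA0 : Nat.card A0 ≤ 16 := by
    have h1 : Nat.card A0 ≤ 2 * Nat.card A1 := card_ext2
    have h2 : Nat.card A1 ≤ 2 * Nat.card Z := card_ext2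
    omega
  have m2 : w3 * w1 ∈ A0 := by
    have : w3 * w1 = ⁅w3, w1⁆ * (w1 * w2) * (w2 * w2)⁻¹ * (w2 * w3) := by
      simp only [commutatorElement_def]; group
    rw [this]
    exact A0.mul_mem (A0.mul_mem (A0.mul_mem (ZA0 (c1 _ q3)) m0) (A0.inv_mem (ZA0 s2))) m1
  have gA0 : ∀ x ∈ A0, g * x * g⁻¹ ∈ A0 := by
    intro x hx
    have : A0 ≤ cj g⁻¹ A0 := by
      refine A0le _ (fun z hz => ?_) ?_ ?_ <;> rw [mem_cj, inv_inv]
      · exact ZA0 (gZ' z hz)
      · convert m1 using 1; rw [← e3, ← e2]; group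
      · convert m2 using 1; rw [← e1, ← e3]; group
    have := this hx
    rwa [mem_cj, inv_inv] at this
  -- commutativity
  have cm : (w1 * w2) * (w2 * w3) = (w2 * w3) * (w1 * w2) := by
    have k12 := c2 _ q1
    have k23 := c3 _ q2
    have k31 := c1 _ q3
    have zc : ∀ z ∈ Z, ∀ z' ∈ Z, z * z' = z' * z := fun z hz z' hz' => hc z' hz' z (hZQ hz)
    set c := ⁅w1, w2⁆ * ⁅w2, w3⁆ * ⁅w3, w1⁆ with hcdef
    have cZ : c ∈ Z := Z.mul_mem (Z.mul_mem k12 k23) k31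
    have gc : g * c = c * g := by
      have cc : ∀ a b : G, g * ⁅a, b⁆ * g⁻¹ = ⁅g * a * g⁻¹, g * b * g⁻¹⁆ := fun a b => by
        simp only [commutatorElement_def]; group
      have : g * c * g⁻¹ = ⁅w2, w3⁆ * ⁅w3, w1⁆ * ⁅w1, w2⁆ := by
        calc g * c * g⁻¹ = (g * ⁅w1, w2⁆ * g⁻¹) * (g * ⁅w2, w3⁆ * g⁻¹) * (g * ⁅w3, w1⁆ * g⁻¹) := by
              rw [hcdef]; group
          _ = _ := by rw [cc, cc, cc, e1, e2, e3]
      have k : ⁅w2, w3⁆ * ⁅w3, w1⁆ * ⁅w1, w2⁆ = c := by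
        rw [← zc _ k12 _ (Z.mul_mem k23 k31), hcdef, mul_assoc]
      rw [k] at this
      calc g * c = g * c * g⁻¹ * g := by group
        _ = _ := by rw [this]
    have c1' : c = 1 := F c (hZQ cZ) (mem_CC.2 fun q hq => hc c cZ q hq) (hz2 c cZ) gc
    have i31 : ⁅w3, w1⁆⁻¹ = ⁅w3, w1⁆ := inv_eq_of_mul_eq_one_left (hz2 _ k31)
    have r12 : w1 * w2 = ⁅w1, w2⁆ * (w2 * w1) := by simp only [commutatorElement_def]; group
    have r13 : w1 * w3 = ⁅w3, w1⁆ * (w3 * w1) := by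
      rw [← i31]; simp only [commutatorElement_def]; group
    have r23 : w2 * w3 = ⁅w2, w3⁆ * (w3 * w2) := by simp only [commutatorElement_def]; group
    calc (w1 * w2) * (w2 * w3) = ⁅w1, w2⁆ * w2 * w1 * (w2 * w3) := by rw [r12]; group
      _ = ⁅w1, w2⁆ * (w2 * w1 * ⁅w2, w3⁆) * w3 * w2 := by rw [r23]; group
      _ = ⁅w1, w2⁆ * ⁅w2, w3⁆ * w2 * (w1 * w3) * w2 := by
          rw [hc _ k23 _ (Q.mul_mem q2 q1)]; group
      _ = ⁅w1, w2⁆ * ⁅w2, w3⁆ * (w2 * ⁅w3, w1⁆) * w3 * w1 * w2 := by rw [r13]; group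
      _ = c * ((w2 * w3) * (w1 * w2)) := by rw [hc _ k31 _ q2, hcdef]; group
      _ = _ := by rw [c1', one_mul]
  have zcen : ∀ x ∈ Q, Z ≤ Subgroup.centralizer {x} := fun x hx z hz =>
    Subgroup.mem_centralizer_singleton_iff.2 (hc z hz x hx).symm
  have abA0 : A0 ≤ CC(A0) := by
    refine A0le _ (fun z hz => mem_CC.2 fun y hy => hc z hz y (A0U hy).1) ?_ ?_ <;>
      refine mem_CC.2 fun y hy => ?_
    · exact Subgroup.mem_centralizer_singleton_iff.1 (A0le _ (zcen _ ua0.1)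
        (Subgroup.mem_centralizer_singleton_iff.2 rfl)
        (Subgroup.mem_centralizer_singleton_iff.2 cm.symm) hy)
    · exact Subgroup.mem_centralizer_singleton_iff.1 (A0le _ (zcen _ ua1.1)
        (Subgroup.mem_centralizer_singleton_iff.2 cm)
        (Subgroup.mem_centralizer_singleton_iff.2 rfl) hy)
  -- step (5)
  have five : ∀ q ∈ Q, q⁻¹ * (g * q * g⁻¹) ∈ A0 := by
    intro q hq
    let W := ext2 A0 w1 (nrm' A0 ZA0 A0U _ q1) (ZA0 s1)
    have w1W : w1 ∈ W := self_mem_ext2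
    have A0W : A0 ≤ W := le_ext2
    have w2W : w2 ∈ W := by simpa using W.mul_mem (W.inv_mem w1W) (A0W m0)
    have w3W : w3 ∈ W := by simpa using W.mul_mem (W.inv_mem w2W) (A0W m1)
    rcases hW W (ZA0.trans A0W) w1W w2W w3W q hq with h | h
    · exact h
    set x := w1 * (q⁻¹ * (g * q * g⁻¹)) with hx
    have x2 := gA0 x h
    have x3 := gA0 _ x2
    have key : w1⁻¹ * x * (w2⁻¹ * (g * x * g⁻¹)) * (w3⁻¹ * (g * (g * x * g⁻¹) * g⁻¹)) = 1 := by
      rw [hx, ← e3, ← e2]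
      calc _ = q⁻¹ * (g * g * g) * q * (g * g * g)⁻¹ := by group
        _ = 1 := by rw [g3]; group
    have w3A : w3 ∈ A0 := by
      have y1 := nrm' A0 ZA0 A0U _ q1 x h
      have y2 := nrm' A0 ZA0 A0U _ ua0.1 _ (A0.mul_mem (nrm A0 ZA0 A0U _ q2 _
        (nrm A0 ZA0 A0U _ q1 _ (A0.inv_mem m0))) (A0.one_mem))
      have : w3 = (g * (g * x * g⁻¹) * g⁻¹) * (w1⁻¹ * x * w1) * (w2 * w1)⁻¹ * (g * x * g⁻¹) := by
        have k : w3 * 1 = (g * (g * x * g⁻¹) * g⁻¹) * (w1⁻¹ * x * (w2⁻¹ * (g * x * g⁻¹))) := by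
          have k2 : w3⁻¹ * (g * (g * x * g⁻¹) * g⁻¹) =
              (w1⁻¹ * x * (w2⁻¹ * (g * x * g⁻¹)))⁻¹ := (inv_eq_of_mul_eq_one_right key).symm
          calc w3 * 1 = (g * (g * x * g⁻¹) * g⁻¹) * (w3⁻¹ * (g * (g * x * g⁻¹) * g⁻¹))⁻¹ := by group
            _ = _ := by rw [k2, inv_inv]
        rw [mul_one] at k
        rw [k]; group
      rw [this]
      have m0' : w2 * w1 ∈ A0 := by
        have := nrm' A0 ZA0 A0U _ q1 _ m0
        simpa [mul_assoc] using this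
      exact A0.mul_mem (A0.mul_mem (A0.mul_mem x3 y1) (A0.inv_mem m0')) x2
    have w1A : w1 ∈ A0 := e1 ▸ gA0 _ w3A
    simpa [hx] using A0.mul_mem (A0.inv_mem w1A) h
  -- step (6)
  have ginv : ∀ q ∈ Q, q * (w1 * w2) = (w1 * w2) * q →
      (g * q * g⁻¹) * (w1 * w2) = (w1 * w2) * (g * q * g⁻¹) := by
    intro q hq hqc
    have h1 := mem_CC.1 (abA0 (five q hq)) _ m0
    calc (g * q * g⁻¹) * (w1 * w2) = q * (q⁻¹ * (g * q * g⁻¹) * (w1 * w2)) := by group
      _ = q * (w1 * w2) * (q⁻¹ * (g * q * g⁻¹)) := by rw [← h1]; group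
      _ = _ := by rw [hqc]; group
  have Fbot : Q ⊓ CC(A0) ⊓ Subgroup.centralizer {g} = ⊥ := by
    by_contra hne
    have hn : Q ≤ NN((Q ⊓ CC(A0) ⊓ Subgroup.centralizer {g} : Subgroup G)) := by
      refine le_NN_iff.2 fun y hy f hf => ⟨⟨Q.mul_mem (Q.mul_mem hy hf.1.1) (Q.inv_mem hy),
        conj_mem_of_mem_NN (le_NN_CC (le_NN_iff.2 (nrm A0 ZA0 A0U)) hy) hf.1.2⟩, ?_⟩
      have f1 := mem_CC.1 hf.1.2 _ (five y hy)
      have f2 := Subgroup.mem_centralizer_singleton_iff.1 hf.2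
      refine Subgroup.mem_centralizer_singleton_iff.2 ?_
      calc y * f * y⁻¹ * g = y * (f * (y⁻¹ * (g * y * g⁻¹))) * g * y⁻¹ := by group
        _ = g * y * g⁻¹ * (f * g) * y⁻¹ := by rw [← f1]; group
        _ = _ := by rw [f2]; group
    have := inf_ZO_ne_bot hQ (inf_le_left.trans inf_le_left) hn hne
    obtain ⟨⟨y, hy⟩, hy1⟩ := Subgroup.ne_bot_iff_exists_ne_one.1 this
    have hy' : y ∈ ZO 2 Q ∧ y ∈ Q ⊓ CC(A0) ⊓ Subgroup.centralizer {g} := by
      first | exact hy | exact ⟨hy.2, hy.1⟩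
    obtain ⟨z1, z2, z3⟩ := mem_ZO.1 hy'.1
    exact hy1 (Subtype.ext (F y z1 z2 (by rwa [pow_two] at z3)
      (Subgroup.mem_centralizer_singleton_iff.1 hy'.2.2).symm))
  have ker : ∀ q ∈ Q, q * (w1 * w2) = (w1 * w2) * q → q ∈ A0 := by
    intro q hq hqc
    have h2 := ginv _ (gQ' q hq) (ginv q hq hqc)
    have hq1 : q * (w2 * w3) = (w2 * w3) * q := by
      have e : w2 * w3 = g * (w1 * w2) * g⁻¹ := by rw [← e3, ← e2]; group
      have e' : g * (g * q * g⁻¹) * g⁻¹ = g⁻¹ * q * g := by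
        rw [gi]
        calc g * (g * q * (g * g)) * (g * g) = g * g * q * g * (g * g * g) := by group
          _ = _ := by rw [g3]; group
      rw [e'] at h2
      rw [e]
      calc q * (g * (w1 * w2) * g⁻¹) = g * (g⁻¹ * q * g * (w1 * w2)) * g⁻¹ := by group
        _ = _ := by rw [h2]; group
    have qC : q ∈ CC(A0) := mem_CC.2 fun y hy => Subgroup.mem_centralizer_singleton_iff.1
      (A0le _ (zcen q hq) (Subgroup.mem_centralizer_singleton_iff.2 hqc.symm)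
        (Subgroup.mem_centralizer_singleton_iff.2 hq1.symm) hy)
    set u := q⁻¹ * (g * q * g⁻¹) with hu
    have uA : u ∈ A0 := five q hq
    set v := (g * q * g⁻¹)⁻¹ * (g * (g * q * g⁻¹) * g⁻¹) with hv
    have vA : v ∈ A0 := five _ (gQ' q hq)
    have r1 : g * q * g⁻¹ = q * u := by rw [hu]; group
    have r2 : g * (g * q * g⁻¹) * g⁻¹ = q * u * v := by rw [hv, ← r1]; group
    have cqu : Commute q u := (mem_CC.1 qC u uA).symm
    have cqv : Commute q v := (mem_CC.1 qC v vA).symm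
    have hs : q * (q * u) * (q * u * v) ∈ Q ⊓ CC(A0) ⊓ Subgroup.centralizer {g} := by
      refine ⟨⟨?_, ?_⟩, ?_⟩
      · exact Q.mul_mem (Q.mul_mem hq (Q.mul_mem hq (A0U uA).1))
          (Q.mul_mem (Q.mul_mem hq (A0U uA).1) (A0U vA).1)
      · exact Subgroup.mul_mem _ (Subgroup.mul_mem _ qC (Subgroup.mul_mem _ qC (abA0 uA)))
          (Subgroup.mul_mem _ (Subgroup.mul_mem _ qC (abA0 uA)) (abA0 vA))
      · refine Subgroup.mem_centralizer_singleton_iff.2 ?_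
        have cc : Commute q ((q * u) * (q * u * v)) :=
          ((Commute.refl q).mul_right cqu).mul_right
            (((Commute.refl q).mul_right cqu).mul_right cqv)
        have k : g * (q * (q * u) * (q * u * v)) * g⁻¹ = (q * u) * (q * u * v) * q := by
          rw [← r2, ← r1]
          calc _ = (g * q * g⁻¹) * (g * (g * q * g⁻¹) * g⁻¹) * ((g * g * g) * q * (g * g * g)⁻¹) := by
                group
            _ = _ := by rw [g3]; group
        rw [← cc.eq] at k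
        calc q * (q * u) * (q * u * v) * g = (q * ((q * u) * (q * u * v))) * g := by group
          _ = _ := by rw [← k]; group
    rw [Fbot, Subgroup.mem_bot] at hs
    have h3 : q ^ 3 ∈ A0 := by
      have : q ^ 3 * (u * u * v) = 1 := by
        rw [← hs]
        calc q ^ 3 * (u * u * v) = q * q * (q * u) * u * v := by
              rw [pow_three]; simp only [mul_assoc]
          _ = q * q * (u * q) * u * v := by rw [cqu.eq]
          _ = _ := by simp only [mul_assoc]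
      rw [eq_inv_of_mul_eq_one_left this]
      exact A0.inv_mem (A0.mul_mem (A0.mul_mem uA uA) vA)
    obtain ⟨k, hk⟩ := isPGroup_iff_mem.1 hQ q hq
    obtain ⟨m, hm⟩ := exists_pow_eq_self_of_coprime (x := q) (n := 3)
      (Nat.Coprime.coprime_dvd_right (orderOf_dvd_of_pow_eq_one hk)
        (Nat.Coprime.pow_right k (by norm_num)))
    rw [← hm]
    exact A0.pow_mem h3 m
  let φ : Q →* Z := MonoidHom.mk' (fun q => ⟨⁅(q : G), w1 * w2⁆, ua0.2 q q.2⟩) (by
    intro x y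
    apply Subtype.ext
    have : ⁅(x : G) * y, w1 * w2⁆ = x * ⁅(y : G), w1 * w2⁆ * (x : G)⁻¹ * ⁅(x : G), w1 * w2⁆ := by
      simp only [commutatorElement_def]; group
    simp only [Subgroup.coe_mul]
    rw [this, cz _ (ua0.2 y y.2) x x.2]
    exact hc _ (ua0.2 x x.2) _ (hZQ (ua0.2 y y.2)))
  have h1 := Subgroup.card_eq_card_quotient_mul_card_subgroup φ.ker
  rw [Nat.card_congr (QuotientGroup.quotientKerEquivRange φ).toEquiv] at h1
  have h2 : Nat.card φ.range ≤ 4 := (Subgroup.card_le_card_group _).trans hZ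
  have h3 : Nat.card φ.ker ≤ Nat.card A0 := by
    refine Nat.card_le_card_of_injective (fun x => ⟨x.1.1, ker _ x.1.2
      (commutatorElement_eq_one_iff_mul_comm.1 (congrArg Subtype.val x.2))⟩) ?_
    intro x y e
    have e' : x.1.1 = y.1.1 := congrArg (fun z : A0 => (z : G)) e
    exact Subtype.ext (Subtype.ext e')
  rw [h1]
  exact (Nat.mul_le_mul h2 (h3.trans cA0))

theorem fin {G V : Type*} [Group G] [Finite G] [MulAction G V] {Γ : SimpleGraph V} (h : AG G Γ)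
    {a b : V} (hab : Γ.Adj a b) (hb : stabilizer G b ≤ CC(ZO 2 (stabilizer G a ⊓ stabilizer G b)))
    (hZ : Nat.card (gZ G a) ≤ 4) (P : V → G → Prop)
    (P1 : ∀ g c w, g ∈ stabilizer G a → P c w → P (g • c) (g * w * g⁻¹))
    (P2 : ∀ c w w', Γ.Adj a c → P c w → P c w' → w⁻¹ * w' ∈ gZ G a)
    (P3 : ∀ c w, Γ.Adj a c → P c w → w ∈ gQ G a ∧ w * w ∈ gZ G a)
    (P4 : ∃ c w, Γ.Adj a c ∧ P c w ∧ w ∉ gQ G b)
    (P5 : ∃ t ∈ stabilizer G a ⊓ stabilizer G b, t ∉ gQ G a ∧ ∀ q ∈ gQ G a ⊓ gQ G b,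
      ⁅q, t⁆ ∈ gZ G a ⊔ Subgroup.closure {w | ∃ c, Γ.Adj a c ∧ P c w}) :
    Nat.card ↥(stabilizer G a ⊓ stabilizer G b) ≤ 128 := by
  obtain ⟨c, w, hc, hw, hwb⟩ := P4
  obtain ⟨t, ht, htQ, hqt⟩ := P5
  set W := gZ G a ⊔ Subgroup.closure {w | ∃ c, Γ.Adj a c ∧ P c w} with hWdef
  have S := h.loc hab
  have zc : ∀ z ∈ gZ G a, ∀ q ∈ gQ G a, q * z = z * q := fun z hz q hq =>
    (mem_CC.1 (h.Q_le_CC a hq) z hz).symm
  have nW : stabilizer G a ≤ NN(W) := by
    refine le_NN_sup (le_NN_gZ le_rfl) (le_NN_of_cj_le fun g hg => ?_)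
    rw [cj_le_iff, Subgroup.closure_le]
    rintro x ⟨d, hd, hx⟩
    rw [SetLike.mem_coe, mem_cj, inv_inv]
    exact Subgroup.subset_closure ⟨g • d, h.smul_of_mem hg hd, P1 g d x hg hx⟩
  have wW : w ∈ W := Subgroup.mem_sup_right (Subgroup.subset_closure ⟨c, hc, hw⟩)
  have wQ := (P3 c w hc hw).1
  have one : ⁅Subgroup.zpowers t, gQ G a⁆ ≤ W := by
    rw [Subgroup.zpowers_eq_closure]
    refine comm_closure_le ?_ ?_
    · rw [← Subgroup.zpowers_eq_closure]; exact (Subgroup.zpowers_le.2 ht.1).trans nW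
    · intro t' ht' q hq
      rw [Set.mem_singleton_iff.1 ht', ← commutatorElement_inv]
      apply W.inv_mem
      by_cases hqb : q ∈ gQ G b
      · exact hqt q ⟨hq, hqb⟩
      · have h1 : q * w ∈ gQ G b := (h.loc' hab).mul_mem_Q (h.Q_le_T hab hq) (h.Q_le_T hab wQ) hqb hwb
        have h2 := hqt _ ⟨(gQ G a).mul_mem hq wQ, h1⟩
        have h3 : w⁻¹ * (t * w * t⁻¹) ∈ W :=
          W.mul_mem (W.inv_mem wW) (conj_mem_of_mem_NN (nW ht.1) wW)
        have h4 := W.mul_mem (conj_mem_of_mem_NN (nW (gQ_le a ((gQ G a).mul_mem hq wQ))) h3) h2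
        convert h4 using 1
        simp only [commutatorElement_def]; group
  have two : ⁅resOf 2 (stabilizer G a), gQ G a⁆ ≤ W :=
    (Subgroup.commutator_mono (S.res_le_ncl (Subgroup.zpowers_le.2 ht.1)
      (fun e => htQ (e (Subgroup.mem_zpowers t)))) le_rfl).trans
      (comm_ncl_le one ((Subgroup.zpowers_le.2 ht.1).trans nW) (le_NN_gQ le_rfl) nW)
  obtain ⟨g', hg'⟩ := exists_prime_orderOf_dvd_card' (G := stabilizer G a) 3 (hp := ⟨by norm_num⟩)
    (by rw [← S.idx3]; exact Subgroup.relIndex_dvd_card _ _)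
  set g : G := g'.1 with hgdef
  have ga : g ∈ stabilizer G a := g'.2
  have og : orderOf g = 3 := by rw [hgdef, Subgroup.orderOf_coe, hg']
  have g3 : g * g * g = 1 := by rw [← pow_three', ← og, pow_orderOf_eq_one]
  have gres : g ∈ resOf 2 (stabilizer G a) := mem_resOf ga (by rw [og]; norm_num)
  have gn : ∀ d, Γ.Adj a d → g • d ≠ d := by
    intro d hd e
    obtain ⟨k, hk⟩ := isPGroup_iff_mem.1 (h.loc hd).pg g ⟨ga, e⟩
    have := orderOf_dvd_of_pow_eq_one hk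
    rw [og] at this
    have := Nat.Prime.dvd_of_dvd_pow Nat.prime_three this
    omega
  have g3' : ∀ d : V, g • g • g • d = d := fun d => by rw [← mul_smul, ← mul_smul, g3, one_smul]
  have gn2 : ∀ d, Γ.Adj a d → g • g • d ≠ d := by
    intro d hd e
    have := g3' d
    rw [e] at this
    exact gn d hd this
  have ad : ∀ d, Γ.Adj a d → Γ.Adj a (g • d) := fun d hd => h.smul_of_mem ga hd
  have cw : ∀ d x, Γ.Adj a d → P d x → ∀ q ∈ gQ G a, ⁅q, x⁆ ∈ gZ G a := by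
    intro d x hd hx q hq
    have h1 := P1 q d x (gQ_le a hq) hx
    rw [show q • d = d from h.Q_le hd hq] at h1
    have h2 := conj_mem_of_mem_NN (le_NN_gZ (gQ_le a) (P3 d x hd hx).1) (P2 d _ _ hd hx h1)
    convert h2 using 1
    simp only [commutatorElement_def]; group
  have p2 := P1 g _ _ ga hw
  have p3 := P1 g _ _ ga p2
  have tQ : ∀ q ∈ gQ G a, t * q * t⁻¹ ∈ gQ G a := fun q hq =>
    conj_mem_of_mem_NN (le_NN_gQ le_rfl ht.1) hq
  have F0 : ∀ y ∈ gQ G a, y ∈ CC(gQ G a) → y * y = 1 → g * y = y * g → t * y = y * t → y = 1 := by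
    intro y y1 y2 y3 y4 y5
    have hT : stabilizer G a ⊓ stabilizer G b ≤ Subgroup.centralizer {y} := by
      intro s hs
      rw [Subgroup.mem_centralizer_singleton_iff]
      by_cases hsQ : s ∈ gQ G a
      · exact mem_CC.1 y2 s hsQ
      · have h1 := mem_CC.1 y2 _ (S.mul_mem_Q hs ht hsQ htQ)
        calc s * y = s * t * (t⁻¹ * y * t) * t⁻¹ := by group
          _ = s * t * y * t⁻¹ := by rw [mul_assoc t⁻¹, ← y5]; group
          _ = _ := by rw [h1]; group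
    have yZO : y ∈ ZO 2 (stabilizer G a ⊓ stabilizer G b) := mem_ZO.2 ⟨h.Q_le_T hab y1,
      mem_CC.2 fun s hs => Subgroup.mem_centralizer_singleton_iff.1 (hT hs), by rw [pow_two, y3]⟩
    have hL := S.eq_L (X := stabilizer G a ⊓ Subgroup.centralizer {y}) (le_inf inf_le_left hT)
      inf_le_left (fun e => gn b hab
        (e ⟨ga, Subgroup.mem_centralizer_singleton_iff.2 y4⟩).2)
    have := h.bot_of_CC hab (N := Subgroup.zpowers y) (Subgroup.zpowers_le.2 (h.Q_le_T hab y1))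
      (Subgroup.zpowers_le.2 (mem_CC.2 fun s hs =>
        Subgroup.mem_centralizer_singleton_iff.1 (hL.ge hs).2))
      (Subgroup.zpowers_le.2 (mem_CC.2 fun s hs => (mem_CC.1 (hb hs) y yZO).symm))
    exact Subgroup.zpowers_eq_bot.1 this
  have xQ : t * g * t⁻¹ * g ∈ gQ G a := by
    have b2 := ad b hab
    have b3 := ad _ b2
    have ti : t⁻¹ ∈ stabilizer G a ⊓ stabilizer G b := Subgroup.inv_mem _ ht
    have tiQ : t⁻¹ ∉ gQ G a := fun e => htQ (by simpa using (gQ G a).inv_mem e)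
    have n23 : g • b ≠ g • g • b := (gn _ b2).symm
    have k1 : t⁻¹ • g • b = g • g • b := h.smul_eq hab b2 b3 (gn b hab) (gn2 b hab) n23 ti tiQ
    have k2 : t⁻¹ • g • g • b = g • b := h.smul_eq hab b3 b2 (gn2 b hab) (gn b hab) n23.symm ti tiQ
    have k3 : t • g • g • b = g • b := h.smul_eq hab b3 b2 (gn2 b hab) (gn b hab) n23.symm ht htQ
    refine Subgroup.zpowers_le.1 (h.le_Q hab b2 (gn b hab).symm (Subgroup.zpowers_le.2 ?_)
      (Subgroup.zpowers_le.2 ?_) (Subgroup.zpowers_le.2 ?_))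
    · exact Subgroup.mul_mem _ (Subgroup.mul_mem _ (Subgroup.mul_mem _ ht.1 ga) ti.1) ga
    · rw [mem_stabilizer_iff, mul_smul, mul_smul, mul_smul, k1, g3']; exact ht.2
    · rw [mem_stabilizer_iff, mul_smul, mul_smul, mul_smul, k2, k3]
  have F : ∀ y ∈ gQ G a, y ∈ CC(gQ G a) → y * y = 1 → g * y = y * g → y = 1 := by
    intro y y1 y2 y3 y4
    have z1 := tQ y y1
    have z2 : t * y * t⁻¹ ∈ CC(gQ G a) :=
      conj_mem_of_mem_NN (le_NN_CC (le_NN_gQ le_rfl) ht.1) y2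
    have z4 : g * (t * y * t⁻¹) = (t * y * t⁻¹) * g := by
      have h1 := mem_CC.1 z2 _ xQ
      have h2 : (t * g * t⁻¹) * (t * y * t⁻¹) = (t * y * t⁻¹) * (t * g * t⁻¹) := by
        calc _ = t * (g * y) * t⁻¹ := by group
          _ = _ := by rw [y4]; group
      calc g * (t * y * t⁻¹) = (t * g * t⁻¹)⁻¹ * (t * g * t⁻¹ * g * (t * y * t⁻¹)) := by group
        _ = (t * g * t⁻¹)⁻¹ * ((t * y * t⁻¹) * (t * g * t⁻¹)) * g := by rw [h1]; group
        _ = _ := by rw [← h2]; group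
    have cyy : y * (t * y * t⁻¹) = (t * y * t⁻¹) * y := mem_CC.1 z2 y y1
    have tt := mem_CC.1 y2 _ (S.mul_mem_Q ht ht htQ htQ)
    have k := F0 (y * (t * y * t⁻¹)) ((gQ G a).mul_mem y1 z1) (Subgroup.mul_mem _ y2 z2)
      (by
        calc _ = y * ((t * y * t⁻¹) * y) * (t * y * t⁻¹) := by group
          _ = (y * y) * (t * (y * y) * t⁻¹) := by rw [← cyy]; group
          _ = 1 := by rw [y3]; group)
      (by rw [← mul_assoc, y4, mul_assoc y g, z4]; group)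
      (by
        calc t * (y * (t * y * t⁻¹)) = (t * y * t⁻¹) * (t * t * y) * t⁻¹ := by group
          _ = (t * y * t⁻¹) * y * t := by rw [tt]; group
          _ = _ := by rw [cyy])
    refine F0 y y1 y2 y3 y4 ?_
    have : t * y * t⁻¹ = y := by
      rw [← y3] at k
      exact mul_left_cancel k
    calc t * y = t * y * t⁻¹ * t := by group
      _ = _ := by rw [this]
  have main := core (Q := gQ G a) (Z := gZ G a) (g := g) (w1 := w) (gQ_pg a) (h.Z_le_Q a) zc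
    (fun z hz => h.mul_self hz) hZ (fun q hq => conj_mem_of_mem_NN (le_NN_gQ le_rfl ga) hq)
    (fun q hq => conj_mem_of_mem_NN (le_NN_gZ le_rfl ga) hq) g3 rfl rfl wQ (P3 c w hc hw).2
    (cw _ _ hc hw) (cw _ _ (ad _ hc) p2) (cw _ _ (ad _ (ad _ hc)) p3) F (by
      intro K hZK k1 k2 k3 q hq
      have hWK : W ≤ K := by
        refine sup_le hZK ?_
        rw [Subgroup.closure_le]
        rintro x ⟨d, hd, hx⟩
        rcases h.three hc (ad _ hc) (ad _ (ad _ hc)) (gn c hc).symm (gn2 c hc).symm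
          (gn _ (ad _ hc)).symm hd with rfl | rfl | rfl
        · simpa using K.mul_mem k1 (hZK (P2 _ _ _ hd hw hx))
        · have := K.mul_mem k2 (hZK (P2 _ _ _ hd p2 hx))
          rwa [mul_inv_cancel_left] at this
        · have := K.mul_mem k3 (hZK (P2 _ _ _ hd p3 hx))
          rwa [mul_inv_cancel_left] at this
      have h1 := two (Subgroup.commutator_mem_commutator gres hq)
      have h2 := conj_mem_of_mem_NN' (nW (gQ_le a hq)) h1
      apply hWK
      convert h2 using 1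
      simp only [commutatorElement_def]; group)
  have h1 := Subgroup.card_mul_index ((gQ G a).subgroupOf (stabilizer G a ⊓ stabilizer G b))
  have h2 : ((gQ G a).subgroupOf (stabilizer G a ⊓ stabilizer G b)).index = 2 := S.idx2
  rw [h2, card_subgroupOf_of_le (h.Q_le_T hab)] at h1
  omega

end H26.Gam
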