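import Cfsg.Agent.H25.He4
import Cfsg.Agent.H27.H11b

/-! The relation `h11` for groups of Janko-four type. -/

set_option autoImplicit false
set_option linter.style.longLine false
set_option linter.unusedVariables false

namespace H26H11
open Cfsg Cfsg.Spor H7.J4 H29 H29.J4m H29.U Subgroup

universe u
variable {G : Type u} [Group G] [Finite G] {M : Model G} {x y e t : G}

theorem h11 (f : Fr M x y e) (q : Qs M e) (g : Gd M x y e t) : (y * ((y * x * (y⁻¹) * x * y * x * (y⁻¹) * x)⁻¹ * t * (y * x * (y⁻¹) * x * y * x * (y⁻¹) * x))) ^ 3 = 1 := by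
  have h := H25.He4.h11a f q g
  obtain ⟨z, -, hz⟩ := em_in f.toMd [1, 2, 4, 6, 10]
  have h5 := List.Forall₂.cons hz f.h
  have h6 : List.Forall₂ M.R _ [H25.He4.wj.g [x, y, y⁻¹, e], e, z] :=
    .cons (H25.He4.wj.R f.h) (.cons (f.s.lit f.h (.v 3) (c := ce) (by decide +kernel)) (.cons hz .nil))
  rw [f.s.1, f.s.2.1] at h6
  have e1 : H25.He4.wj.g [x, y, y⁻¹, e] * e = z * H25.He4.wj.g [x, y, y⁻¹, e] :=
    f.s.eq h6 (.m (.v 0) (.v 1)) (.m (.v 2) (.v 0)) (by decide +kernel)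
  have z2 : z * z = 1 :=
    (f.s.eq h6 (.m (.v 2) (.v 2)) (.p (.v 0) 0) (by decide +kernel)).trans (pow_zero _)
  rw [e1, mul_inv_cancel_right] at h
  obtain ⟨k, hk⟩ := h
  have hne := H27.H11b.h11b f.toMd g hz
  rw [← hk] at hne ⊢
  have z2' : z ^ (2 : ℤ) = 1 := by rw [zpow_two, z2]
  obtain ⟨m, rfl | rfl⟩ := Int.even_or_odd' k
  · simp only [zpow_mul, z2', one_zpow]
  · exact absurd (by simp only [zpow_add, zpow_mul, z2', one_zpow, one_mul, zpow_one]) hne

end H26H11
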