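import Mathlib

/-! Quadratic forms on generalised characters of abelian groups (Knörr). -/

set_option autoImplicit false
set_option linter.unusedSectionVars false
set_option linter.unusedVariables false

namespace H26Kn

open Finset
open scoped ComplexConjugate

variable {A : Type*} [CommGroup A] [Fintype A] [Fintype (A →* ℂˣ)]

theorem conj_lin (l : A →* ℂˣ) (a : A) : conj (l a : ℂ) = (l a : ℂ)⁻¹ := by
  have h : (l a : ℂ) ^ orderOf a = 1 := by
    rw [← Units.val_pow_eq_pow_val, ← map_pow, pow_orderOf_eq_one, map_one, Units.val_one]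
  exact (Complex.inv_eq_conj (Complex.norm_eq_one_of_pow_eq_one h (orderOf_pos a).ne')).symm

/-- the generalised character with multiplicities `t` -/
noncomputable def th (t : (A →* ℂˣ) → ℤ) (a : A) : ℂ := ∑ l, (t l : ℂ) * l a

/-- the weighted norm -/
noncomputable def QQ (w : A → ℝ) (t : (A →* ℂˣ) → ℤ) : ℝ := ∑ a, w a * ‖th t a‖ ^ 2

open Classical in
/-- the `H`-saturation of the support of `t` -/
noncomputable def SS (H : Subgroup (A →* ℂˣ)) (t : (A →* ℂˣ) → ℤ) : Finset (A →* ℂˣ) :=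
  univ.filter fun l => ∃ e ∈ H, t (l * e) ≠ 0

theorem mem_SS {H : Subgroup (A →* ℂˣ)} {t : (A →* ℂˣ) → ℤ} {l : A →* ℂˣ} :
    l ∈ SS H t ↔ ∃ e ∈ H, t (l * e) ≠ 0 := by simp [SS]

/-- the lower bound for the weighted norm -/
def Good (w : A → ℝ) (H : Subgroup (A →* ℂˣ)) : Prop :=
  ∀ t, (Nat.card A : ℝ) * #(SS H t) ≤ QQ w t

open Classical in
/-- the weight attached to a group of characters -/
noncomputable def sB (B : Subgroup (A →* ℂˣ)) (a : A) : ℝ :=
  ∑ m ∈ univ.filter (· ∈ B), ‖1 - ((m : A →* ℂˣ) a : ℂ)⁻¹‖ ^ 2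

theorem th_shift (t : (A →* ℂˣ) → ℤ) (m : A →* ℂˣ) (a : A) :
    th (fun l => t l - t (l * m)) a = (1 - (m a : ℂ)⁻¹) * th t a := by
  have h : ∑ l, (t (l * m) : ℂ) * l a = (m a : ℂ)⁻¹ * th t a := by
    rw [th, ← Equiv.sum_comp (Equiv.mulRight m) fun l => (t l : ℂ) * l a, mul_sum]
    refine sum_congr rfl fun l _ => ?_
    have := (m a).ne_zero
    simp only [Equiv.coe_mulRight, MonoidHom.mul_apply, Units.val_mul]
    field_simp
  rw [sub_mul, one_mul, ← h, th, th, ← sum_sub_distrib]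
  exact sum_congr rfl fun l _ => by push_cast; ring

theorem sum_lin (l : A →* ℂˣ) (hl : l ≠ 1) : ∑ a, (l a : ℂ) = 0 :=
  sum_hom_units_eq_zero ((Units.coeHom ℂ).comp l) fun e => hl (MonoidHom.ext fun a =>
    Units.ext (by simpa using DFunLike.congr_fun e a))

theorem parseval (t : (A →* ℂˣ) → ℤ) :
    ∑ a, ‖th t a‖ ^ 2 = (Nat.card A : ℝ) * ∑ l, ((t l : ℝ)) ^ 2 := by
  classical
  apply Complex.ofReal_injective
  push_cast
  have h : ∀ a, ((‖th t a‖ : ℂ)) ^ 2 = ∑ l, ∑ l', (t l : ℂ) * t l' * ((l * l'⁻¹) a : ℂˣ) := by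
    intro a
    rw [← Complex.mul_conj', th, map_sum, sum_mul_sum]
    refine sum_congr rfl fun l _ => sum_congr rfl fun l' _ => ?_
    rw [map_mul, conj_lin, map_intCast]
    simp only [MonoidHom.mul_apply, MonoidHom.inv_apply, Units.val_mul, Units.val_inv_eq_inv_val]
    ring
  rw [sum_congr rfl fun a _ => h a, sum_comm, mul_sum]
  refine sum_congr rfl fun l _ => ?_
  rw [sum_comm, sum_eq_single l]
  · rw [show l * l⁻¹ = 1 from mul_inv_cancel l]
    simp only [MonoidHom.one_apply, Units.val_one, mul_one, sum_const, card_univ,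
      nsmul_eq_mul, Nat.card_eq_fintype_card]
    ring
  · intro l' _ hl
    rw [← mul_sum, sum_lin _ fun e => hl (mul_inv_eq_one.1 e).symm, mul_zero]
  · simp

theorem good_bot : Good (fun _ : A => 1) ⊥ := by
  classical
  intro t
  simp only [QQ, one_mul, parseval]
  refine mul_le_mul_of_nonneg_left ?_ (Nat.cast_nonneg _)
  rw [card_eq_sum_ones, Nat.cast_sum]
  refine le_trans (sum_le_sum (g := fun l => ((t l : ℝ)) ^ 2) fun l hl => ?_)
    (sum_le_sum_of_subset_of_nonneg (subset_univ _) fun l _ _ => sq_nonneg _)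
  obtain ⟨e, he, h⟩ := mem_SS.1 hl
  rw [Subgroup.mem_bot.1 he, show l * 1 = l from mul_one l] at h
  have : 0 < t l ^ 2 := by positivity
  exact_mod_cast this

theorem sB_nonneg (B : Subgroup (A →* ℂˣ)) (a : A) : 0 ≤ sB B a :=
  sum_nonneg fun _ _ => sq_nonneg _

theorem sB_eq_zero {B : Subgroup (A →* ℂˣ)} {a : A} (h : ∀ m ∈ B, m a = 1) : sB B a = 0 := by
  classical
  exact sum_eq_zero fun m hm => by rw [h m (by simpa using hm)]; simp

theorem sB_le (B : Subgroup (A →* ℂˣ)) (a : A) : sB B a ≤ 2 * Nat.card B := by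
  classical
  by_cases h : ∀ m ∈ B, m a = 1
  · rw [sB_eq_zero h]; positivity
  refine le_of_eq (Complex.ofReal_injective ?_)
  let f : B →* ℂ := (Units.coeHom ℂ).comp ((MonoidHom.eval a).comp B.subtype)
  have hf : f ≠ 1 := fun e => h fun m hm => Units.ext (by simpa [f] using DFunLike.congr_fun e ⟨m, hm⟩)
  have h1 : ∑ m : B, (((m : A →* ℂˣ) a : ℂˣ) : ℂ) = 0 := sum_hom_units_eq_zero f hf
  have h2 : ∑ m : B, (((m : A →* ℂˣ) a : ℂˣ) : ℂ)⁻¹ = 0 := by
    rw [← h1, ← Equiv.sum_comp (Equiv.inv B)]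
    simp
  rw [sB, sum_subtype (p := (· ∈ B)) _ (by simp)]
  push_cast
  have h3 : ∀ m : B, ((‖1 - (((m : A →* ℂˣ) a : ℂˣ) : ℂ)⁻¹‖ : ℂ)) ^ 2 =
      2 - (((m : A →* ℂˣ) a : ℂˣ) : ℂ) - (((m : A →* ℂˣ) a : ℂˣ) : ℂ)⁻¹ := fun m => by
    have := ((m : A →* ℂˣ) a).ne_zero
    rw [← Complex.mul_conj', map_sub, map_one, map_inv₀, conj_lin, inv_inv]
    field_simp
    ring
  rw [sum_congr rfl fun m _ => h3 m, sum_sub_distrib, sum_sub_distrib, h1, h2]
  simp [mul_comm]

open Classical in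
theorem sum_QQ (w : A → ℝ) (B : Subgroup (A →* ℂˣ)) (t : (A →* ℂˣ) → ℤ) :
    ∑ m ∈ univ.filter (· ∈ B), QQ w (fun l => t l - t (l * m)) =
      ∑ a, w a * ‖th t a‖ ^ 2 * sB B a := by
  simp only [QQ, th_shift, sB, mul_sum]
  rw [sum_comm]
  exact sum_congr rfl fun a _ => sum_congr rfl fun m _ => by rw [norm_mul]; ring

theorem Good.step {w : A → ℝ} {H : Subgroup (A →* ℂˣ)} (h : Good w H) (B : Subgroup (A →* ℂˣ)) :
    Good (fun a => w a * (1 + sB B a / 2)) (H ⊔ B) := by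
  classical
  intro t
  have e : QQ (fun a => w a * (1 + sB B a / 2)) t =
      QQ w t + (∑ m ∈ univ.filter (· ∈ B), QQ w (fun l => t l - t (l * m))) / 2 := by
    rw [sum_QQ, QQ, QQ, sum_div, ← sum_add_distrib]
    exact sum_congr rfl fun a _ => by ring
  have c1 : ∀ m, #(SS H fun l => t (l * m)) = #(SS H t) := fun m =>
    card_bijective (· * m) (Equiv.mulRight m).bijective fun l => by
      simp only [mem_SS, mul_right_comm l m]
  have c2 : ∀ m, 2 * #((SS H fun l => t (l * m)) \ SS H t) ≤ #(SS H fun l => t l - t (l * m)) := by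
    intro m
    rw [two_mul]
    nth_rewrite 2 [card_sdiff_comm (c1 m)]
    rw [← card_union_of_disjoint disjoint_sdiff_sdiff]
    refine card_le_card fun l hl => ?_
    simp only [mem_union, mem_sdiff, mem_SS, not_exists, not_and, not_not] at hl ⊢
    rcases hl with ⟨⟨e, he, h1⟩, h2⟩ | ⟨⟨e, he, h1⟩, h2⟩
    · exact ⟨e, he, by rw [h2 e he]; simpa using h1⟩
    · exact ⟨e, he, by rw [h2 e he]; simpa using h1⟩
  have c3 : #(SS (H ⊔ B) t) ≤ #(SS H t) +
      ∑ m ∈ univ.filter (· ∈ B), #((SS H fun l => t (l * m)) \ SS H t) := by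
    refine le_trans (card_le_card (t := SS H t ∪ (univ.filter (· ∈ B)).biUnion
      fun m => (SS H fun l => t (l * m)) \ SS H t) fun l hl => ?_)
      ((card_union_le _ _).trans (Nat.add_le_add_left card_biUnion_le _))
    obtain ⟨e, he, h1⟩ := mem_SS.1 hl
    obtain ⟨x, hx, y, hy, rfl⟩ := Subgroup.mem_sup.1 he
    by_cases h2 : l ∈ SS H t
    · exact mem_union_left _ h2
    · exact mem_union_right _ (mem_biUnion.2 ⟨y, by simpa using hy,
        mem_sdiff.2 ⟨mem_SS.2 ⟨x, hx, by rwa [show l * x * y = l * (x * y) from mul_assoc l x y]⟩, h2⟩⟩)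
  have c4 : (Nat.card A : ℝ) * (2 * ∑ m ∈ univ.filter (· ∈ B),
      (#((SS H fun l => t (l * m)) \ SS H t) : ℝ)) ≤
      ∑ m ∈ univ.filter (· ∈ B), QQ w (fun l => t l - t (l * m)) := by
    rw [mul_sum, mul_sum]
    refine sum_le_sum fun m _ => le_trans (mul_le_mul_of_nonneg_left ?_ (Nat.cast_nonneg _)) (h _)
    exact_mod_cast c2 m
  have c5 : (#(SS (H ⊔ B) t) : ℝ) ≤ #(SS H t) +
      ∑ m ∈ univ.filter (· ∈ B), (#((SS H fun l => t (l * m)) \ SS H t) : ℝ) := by
    exact_mod_cast c3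
  have c6 := mul_le_mul_of_nonneg_left c5 (Nat.cast_nonneg (α := ℝ) (Nat.card A))
  have c7 := h t
  rw [e]
  linarith

theorem two_cosets {H : Subgroup (A →* ℂˣ)} {v : A} (hv : ∀ e ∈ H, e v = 1)
    {t : (A →* ℂˣ) → ℤ} (h1 : th t 1 = 0) (h2 : th t v ≠ 0) : 2 * Nat.card H ≤ #(SS H t) := by
  classical
  obtain ⟨l, hl⟩ : ∃ l, t l ≠ 0 := by
    by_contra hc
    exact h2 (sum_eq_zero fun l _ => by
      rw [show t l = 0 from by_contra fun e => hc ⟨l, e⟩]; simp)
  obtain ⟨l', hl', hne⟩ : ∃ l', t l' ≠ 0 ∧ l' v ≠ l v := by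
    by_contra hc
    apply h2
    rw [← mul_zero (l v : ℂ), ← h1, th, th, mul_sum]
    refine sum_congr rfl fun l' _ => ?_
    by_cases e : t l' = 0
    · simp [e]
    · rw [show l' v = l v from by_contra fun e' => hc ⟨l', e, e'⟩]
      simp [mul_comm]
  have c : ∀ m : A →* ℂˣ, #((univ.filter (· ∈ H)).image (m * ·)) = Nat.card H := fun m => by
    rw [card_image_of_injective _ (mul_right_injective m), Nat.card_eq_fintype_card,
      Fintype.card_subtype]
  rw [two_mul]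
  nth_rewrite 1 [← c l]
  rw [← c l', ← card_union_of_disjoint]
  · refine card_le_card fun x hx => ?_
    simp only [mem_union, mem_image, mem_filter, mem_univ, true_and] at hx
    rcases hx with ⟨e, he, rfl⟩ | ⟨e, he, rfl⟩
    · exact mem_SS.2 ⟨e⁻¹, H.inv_mem he, by rwa [show l * e * e⁻¹ = l from mul_inv_cancel_right l e]⟩
    · exact mem_SS.2 ⟨e⁻¹, H.inv_mem he, by rwa [show l' * e * e⁻¹ = l' from mul_inv_cancel_right l' e]⟩
  · rw [disjoint_left]
    intro x hx hx'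
    simp only [mem_image, mem_filter, mem_univ, true_and] at hx hx'
    obtain ⟨e, he, rfl⟩ := hx
    obtain ⟨e', he', h⟩ := hx'
    have := DFunLike.congr_fun h v
    simp only [MonoidHom.mul_apply, hv e he, hv e' he', mul_one] at this
    exact hne this

theorem Good.final {w : A → ℝ} (hw : ∀ a, 0 ≤ w a) {H : Subgroup (A →* ℂˣ)} (h : Good w H)
    {B : Subgroup (A →* ℂˣ)} {v : A} (hv : ∀ e ∈ H, e v = 1) (hB : ∀ m ∈ B, m v = 1 → m = 1)
    {t : (A →* ℂˣ) → ℤ} (ht : th t v ≠ 0) :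
    ((Nat.card B : ℝ) - 1) * (Nat.card A * (2 * Nat.card H)) ≤
      ∑ a, w a * ‖th t a‖ ^ 2 * sB B a := by
  classical
  have h1 : (1 : A →* ℂˣ) ∈ univ.filter (· ∈ B) := by simp [B.one_mem]
  rw [← sum_QQ, ← add_sum_erase _ _ h1]
  have c : (#((univ.filter (· ∈ B)).erase 1) : ℝ) = (Nat.card B : ℝ) - 1 := by
    rw [eq_sub_iff_add_eq, Nat.card_eq_fintype_card, Fintype.card_subtype]
    exact_mod_cast card_erase_add_one h1
  rw [← c, ← nsmul_eq_mul]
  refine le_add_of_nonneg_of_le (sum_nonneg fun a _ => mul_nonneg (hw a) (sq_nonneg _))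
    (card_nsmul_le_sum _ _ _ fun m hm => le_trans
      (mul_le_mul_of_nonneg_left ?_ (Nat.cast_nonneg _)) (h _))
  obtain ⟨m1, hm⟩ := mem_erase.1 hm
  have := two_cosets hv (t := fun l => t l - t (l * m)) (by rw [th_shift]; simp) (by
    rw [th_shift]
    refine mul_ne_zero (fun e => m1 (hB m (mem_filter.1 hm).2 (Units.ext ?_))) ht
    exact inv_eq_one.1 (sub_eq_zero.1 e).symm)
  exact_mod_cast this

end H26Kn
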