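import Cfsg.Agent.H26.Kn1

/-! Weights attached to a coprime action of an abelian group (Knörr). -/

set_option autoImplicit false
set_option linter.unusedSectionVars false
set_option linter.unusedVariables false

namespace H26Kn

open Finset

variable {A : Type*} [CommGroup A] [Fintype A] [Fintype (A →* ℂˣ)]

instance enough : HasEnoughRootsOfUnity ℂ (Monoid.exponent A) :=
  have : NeZero (Monoid.exponent A : ℂ) := ⟨Nat.cast_ne_zero.2 Monoid.exponent_ne_zero_of_finite⟩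
  inferInstance

/-- the characters trivial on `K` -/
noncomputable def ann (K : Subgroup A) : Subgroup (A →* ℂˣ) :=
  (CommGroup.subgroupOrderIsoSubgroupMonoidHom A ℂ K).ofDual

theorem mem_ann {K : Subgroup A} {l : A →* ℂˣ} : l ∈ ann K ↔ ∀ g ∈ K, l g = 1 :=
  CommGroup.mem_subgroupOrderIsoSubgroupMonoidHom_iff ℂ K l

theorem card_ann (K : Subgroup A) : Nat.card (ann K) = K.index :=
  CommGroup.card_subgroupOrderIsoSubgroupMonoidHom ℂ K

theorem mem_of_ann {K : Subgroup A} {a : A} (h : ∀ l ∈ ann K, l a = 1) : a ∈ K :=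
  (CommGroup.forall_monoidHom_apply_eq_one_iff ℂ K a).1 fun l hl => h l (mem_ann.2 hl)

theorem exists_ann (H : Subgroup (A →* ℂˣ)) :
    ∃ K : Subgroup A, ann K = H ∧ ∀ a, a ∈ K ↔ ∀ l ∈ H, l a = 1 :=
  ⟨(CommGroup.subgroupOrderIsoSubgroupMonoidHom A ℂ).symm (OrderDual.toDual H),
    by rw [ann, OrderIso.apply_symm_apply]; rfl,
    CommGroup.mem_subgroupOrderIsoSubgroupMonoidHom_symm_iff ℂ H⟩

theorem sum_dual {a : A} (ha : a ≠ 1) : ∑ l : A →* ℂˣ, (l a : ℂ) = 0 := by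
  obtain ⟨l, hl⟩ := CommGroup.exists_apply_ne_one_of_hasEnoughRootsOfUnity A ℂ ha
  exact sum_hom_units_eq_zero ((Units.coeHom ℂ).comp (MonoidHom.eval a)) fun e =>
    hl (Units.ext (by simpa using DFunLike.congr_fun e l))

theorem th_eq {f : A → ℂ} {t : (A →* ℂˣ) → ℤ}
    (h : ∀ l, (t l : ℂ) = ∑ u : A, ((Nat.card A : ℂ)⁻¹ * l u⁻¹) * f u) (a : A) : th t a = f a := by
  have c0 : (Nat.card A : ℂ) ≠ 0 := Nat.cast_ne_zero.2 Nat.card_pos.ne'
  have e : ∀ u : A, ∑ l : A →* ℂˣ, ((Nat.card A : ℂ)⁻¹ * l u⁻¹) * f u * l a =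
      (Nat.card A : ℂ)⁻¹ * f u * ∑ l : A →* ℂˣ, (l (u⁻¹ * a) : ℂ) := fun u => by
    rw [mul_sum]
    exact sum_congr rfl fun l _ => by rw [map_mul, Units.val_mul]; ring
  simp only [th, h, sum_mul]
  rw [sum_comm, sum_congr rfl fun u _ => e u, sum_eq_single a]
  · simp only [inv_mul_cancel, map_one, Units.val_one, sum_const, card_univ, nsmul_eq_mul, mul_one]
    rw [← Nat.card_eq_fintype_card, CommGroup.card_monoidHom_of_hasEnoughRootsOfUnity A ℂ]
    field_simp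
  · intro u _ hu
    rw [sum_dual fun e => hu (inv_mul_eq_one.1 e), mul_zero]
  · simp

theorem th_ne_zero {p : ℕ} [hp : Fact p.Prime] {v : A} (hv : v ^ p = 1) {t : (A →* ℂˣ) → ℤ} {n : ℕ}
    (h1 : th t 1 = n) (hn : ¬ p ∣ n) : th t v ≠ 0 := by
  intro h0
  have hζ := Complex.isPrimitiveRoot_exp p hp.out.ne_zero
  have hj : ∀ l : A →* ℂˣ, ∃ j, Complex.exp (2 * Real.pi * Complex.I / p) ^ j = l v := fun l => by
    obtain ⟨j, -, hj⟩ := hζ.eq_pow_of_pow_eq_one (ξ := (l v : ℂ))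
      (by rw [← Units.val_pow_eq_pow_val, ← map_pow, hv, map_one, Units.val_one])
    exact ⟨j, hj⟩
  choose j hj using hj
  have hP : Polynomial.aeval (Complex.exp (2 * Real.pi * Complex.I / p))
      (∑ l, Polynomial.C (t l) * Polynomial.X ^ j l : Polynomial ℤ) = 0 := by
    rw [← h0, th, map_sum]
    exact sum_congr rfl fun l _ => by simp [hj]
  have hd := minpoly.isIntegrallyClosed_dvd (hζ.isIntegral hp.out.pos) hP
  rw [← Polynomial.cyclotomic_eq_minpoly hζ hp.out.pos] at hd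
  have h2 := Polynomial.eval_dvd (x := 1) hd
  rw [Polynomial.eval_one_cyclotomic_prime, Polynomial.eval_finset_sum] at h2
  simp only [Polynomial.eval_mul, Polynomial.eval_C, Polynomial.eval_pow, Polynomial.eval_X,
    one_pow, mul_one] at h2
  have h3 : ∑ l, t l = (n : ℤ) := by
    have : ((∑ l, t l : ℤ) : ℂ) = n := by rw [← h1, th]; simp
    exact_mod_cast this
  rw [h3] at h2
  exact hn (Int.natCast_dvd_natCast.1 h2)

variable {V : Type*} [CommGroup V] [Finite V] (ρ : A →* MulAut V)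

/-- the commutator map -/
def ps (a : A) : V →* V := (ρ a).toMonoidHom / MonoidHom.id V

theorem ps_apply (a : A) (u : V) : ps ρ a u = ρ a u / u := rfl

theorem mem_ker_ps {a : A} {u : V} : u ∈ (ps ρ a).ker ↔ ρ a u = u := by
  rw [MonoidHom.mem_ker, ps_apply, div_eq_one]

theorem rho_comm (a c : A) (u : V) : ρ a (ρ c u) = ρ c (ρ a u) := by
  rw [← MulAut.mul_apply, ← map_mul, mul_comm, map_mul, MulAut.mul_apply]

theorem rho_ps (a c : A) (u : V) : ρ a (ps ρ c u) = ps ρ c (ρ a u) := by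
  rw [ps_apply, ps_apply, map_div, rho_comm]

theorem card_split (c : A) (U : Subgroup V) :
    Nat.card ((ps ρ c).ker ⊓ U : Subgroup V) * Nat.card (U.map (ps ρ c)) = Nat.card U := by
  rw [← Subgroup.relIndex_ker, Subgroup.relIndex,
    ← Subgroup.card_mul_index ((ps ρ c).ker.subgroupOf U), ← Subgroup.inf_subgroupOf_right,
    Nat.card_congr (Subgroup.subgroupOfEquivOfLe inf_le_right).toEquiv]

theorem weight (hz : ∀ a u, ρ a (ps ρ a u) = ps ρ a u → ρ a u = u) {v : A} (hv : ρ v = 1)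
    (U : Subgroup V) : (∀ a, ∀ u ∈ U, ρ a u ∈ U) → ∀ (w : A → ℝ) (H : Subgroup (A →* ℂˣ)),
      (∀ a, 0 ≤ w a) → Good w H → (∀ e ∈ H, e v = 1) →
      ∃ (w' : A → ℝ) (H' : Subgroup (A →* ℂˣ)), (∀ a, 0 ≤ w' a) ∧ Good w' H' ∧
        (∀ e ∈ H', e v = 1) ∧ H ≤ H' ∧ (∀ a, (∀ e ∈ H', e a = 1) → ∀ u ∈ U, ρ a u = u) ∧
        ∀ a, w' a * Nat.card ((ps ρ a).ker ⊓ U : Subgroup V) ≤ w a * Nat.card U := by
  induction U using WellFoundedLT.induction with
  | ind U ih =>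
  intro hU w H hw hg hH
  by_cases hb : U = ⊥
  · subst hb
    exact ⟨w, H, hw, hg, hH, le_rfl, fun a _ u hu => by rw [Subgroup.mem_bot.1 hu, map_one],
      fun a => by rw [inf_bot_eq]⟩
  by_cases hs : ∀ c, (ps ρ c).ker ⊓ U = ⊥ ∨ U ≤ (ps ρ c).ker
  · obtain ⟨u, hu, u1⟩ := (Subgroup.bot_or_exists_ne_one U).resolve_left hb
    letI := MulAction.compHom V ρ
    have hK : ∀ a, a ∈ MulAction.stabilizer A u ↔ ρ a u = u := fun a => Iff.rfl
    have hi : (MulAction.stabilizer A u).index + 1 ≤ Nat.card U := by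
      rw [MulAction.index_stabilizer, ← Set.ncard_insert_of_notMem (a := (1 : V))]
      · refine Set.ncard_le_ncard (t := (U : Set V)) ?_
        rintro x (rfl | ⟨a, rfl⟩)
        · exact U.one_mem
        · exact hU a u hu
      · rintro ⟨a, ha⟩
        exact u1 ((map_eq_one_iff (ρ a) (ρ a).injective).1 ha)
    have hc : ∀ a, ρ a u = u → U ≤ (ps ρ a).ker := fun a ha => (hs a).resolve_left fun e =>
      u1 (Subgroup.mem_bot.1 (e ▸ (⟨(mem_ker_ps ρ).2 ha, hu⟩ : u ∈ (ps ρ a).ker ⊓ U)))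
    refine ⟨_, _, fun a => mul_nonneg (hw a) (by have := sB_nonneg (ann (MulAction.stabilizer A u)) a; positivity),
      hg.step (ann (MulAction.stabilizer A u)), fun e he => ?_, le_sup_left,
      fun a ha x hx => (mem_ker_ps ρ).1 (hc a ((hK a).1 (mem_of_ann fun l hl =>
        ha l (Subgroup.mem_sup_right hl))) hx), fun a => ?_⟩
    · obtain ⟨x, hx, y, hy, rfl⟩ := Subgroup.mem_sup.1 he
      rw [MonoidHom.mul_apply, hH x hx, mem_ann.1 hy v ((hK v).2 (by rw [hv]; rfl)), mul_one]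
    rw [mul_assoc]
    refine mul_le_mul_of_nonneg_left ?_ (hw a)
    by_cases ha : ρ a u = u
    · rw [sB_eq_zero fun m hm => mem_ann.1 hm a ((hK a).2 ha), inf_eq_right.2 (hc a ha)]
      simp
    · rw [(hs a).resolve_right fun e => ha ((mem_ker_ps ρ).1 (e hu)), Subgroup.card_bot]
      have h1 := sB_le (ann (MulAction.stabilizer A u)) a
      rw [card_ann] at h1
      have h2 : ((MulAction.stabilizer A u).index : ℝ) + 1 ≤ Nat.card U := by exact_mod_cast hi
      simp only [Nat.cast_one, mul_one]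
      linarith
  obtain ⟨c, hc⟩ := not_forall.1 hs
  rw [not_or] at hc
  have l1 : (ps ρ c).ker ⊓ U < U := lt_of_le_of_ne inf_le_right fun e => hc.2 (inf_eq_right.1 e)
  have m2 : U.map (ps ρ c) ≤ U := by
    rintro _ ⟨u, hu, rfl⟩
    exact U.div_mem (hU c u hu) hu
  have l2 : U.map (ps ρ c) < U := lt_of_le_of_ne m2 fun e => hc.1 (by
    have := card_split ρ c U
    rw [e] at this
    exact Subgroup.card_eq_one.1 (Nat.eq_of_mul_eq_mul_right Nat.card_pos
      (this.trans (one_mul _).symm)))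
  obtain ⟨w1, H1, a1, a2, a3, a4, a5, a6⟩ := ih _ l1 (fun a u hu => ⟨(mem_ker_ps ρ).2 (by
    rw [rho_comm, (mem_ker_ps ρ).1 hu.1]), hU a u hu.2⟩) w H hw hg hH
  obtain ⟨w2, H2, b1, b2, b3, b4, b5, b6⟩ := ih _ l2 (by
    rintro a _ ⟨u, hu, rfl⟩
    exact ⟨_, hU a u hu, (rho_ps ρ a c u).symm⟩) w1 H1 a1 a2 a3
  refine ⟨w2, H2, b1, b2, b3, a4.trans b4, fun a ha u hu => hz a u ?_, fun a => ?_⟩
  · refine a5 a (fun e he => ha e (b4 he)) _ ⟨(mem_ker_ps ρ).2 ?_, U.div_mem (hU a u hu) hu⟩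
    have h1 := b5 a ha _ ⟨u, hu, rfl⟩
    rw [rho_ps] at h1
    rw [← mem_ker_ps, MonoidHom.mem_ker, ps_apply ρ a, map_div, h1, div_self']
  · have h1 := card_split ρ c ((ps ρ a).ker ⊓ U)
    have h2 := card_split ρ c U
    have h3 : Nat.card (((ps ρ a).ker ⊓ U).map (ps ρ c)) ≤
        Nat.card ((ps ρ a).ker ⊓ U.map (ps ρ c) : Subgroup V) := by
      refine Subgroup.card_le_of_le ?_
      rintro _ ⟨u, hu, rfl⟩
      exact ⟨(mem_ker_ps ρ).2 (by rw [rho_ps, (mem_ker_ps ρ).1 hu.1]), u, hu.2, rfl⟩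
    rw [← h1, ← h2, inf_left_comm]
    push_cast
    have h4 : (Nat.card (((ps ρ a).ker ⊓ U).map (ps ρ c)) : ℝ) ≤
        Nat.card ((ps ρ a).ker ⊓ U.map (ps ρ c) : Subgroup V) := by exact_mod_cast h3
    calc _ = (w2 a * Nat.card (((ps ρ a).ker ⊓ U).map (ps ρ c))) *
          Nat.card ((ps ρ a).ker ⊓ ((ps ρ c).ker ⊓ U) : Subgroup V) := by ring
      _ ≤ (w1 a * Nat.card (U.map (ps ρ c))) *
          Nat.card ((ps ρ a).ker ⊓ ((ps ρ c).ker ⊓ U) : Subgroup V) :=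
        mul_le_mul_of_nonneg_right ((mul_le_mul_of_nonneg_left h4 (b1 a)).trans (b6 a))
          (Nat.cast_nonneg _)
      _ = (w1 a * Nat.card ((ps ρ a).ker ⊓ ((ps ρ c).ker ⊓ U) : Subgroup V)) *
          Nat.card (U.map (ps ρ c)) := by ring
      _ ≤ (w a * Nat.card ((ps ρ c).ker ⊓ U : Subgroup V)) * Nat.card (U.map (ps ρ c)) :=
        mul_le_mul_of_nonneg_right (a6 a) (Nat.cast_nonneg _)
      _ = _ := by ring

end H26Kn
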