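import Cfsg.Agent.H26.Kn2
import Cfsg.Agent.H19.Col
import Cfsg.Agent.H17.Deg
import Cfsg.Agent.S0133

/-! Knörr's abelian stabilizer criterion for the `k(GV)` problem. -/

set_option autoImplicit false
set_option linter.unusedSectionVars false
set_option linter.unusedVariables false

namespace H26Kn

open Finset Subgroup Cfsg H17
open scoped IsMulCommutative

variable {X : Type*} [Group X] [Finite X] {p : ℕ} [hp : Fact p.Prime] {V : Subgroup X} [V.Normal]
  (hVexp : ∀ v ∈ V, v ^ p = 1) (hidx : ¬ p ∣ V.index) (hself : centralizer (V : Set X) = V)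
  {G : Subgroup X} (hGV : IsComplement' V G)

include hself in
theorem vcomm {a b : X} (ha : a ∈ V) (hb : b ∈ V) : a * b = b * a := by
  rw [← hself] at hb
  exact hb a ha

include hVexp hidx hself in
theorem coprime_fix {a u : X} (hu : u ∈ V)
    (h : a * (a * u * a⁻¹ / u) * a⁻¹ = a * u * a⁻¹ / u) : a * u * a⁻¹ = u := by
  set z := a * u * a⁻¹ / u with hz
  have zV : z ∈ V := V.div_mem (Normal.conj_mem inferInstance u hu a) hu
  have e : a * u * a⁻¹ = z * u := by rw [hz, div_mul_cancel]
  have h1 : ∀ n : ℕ, a ^ n * u * (a ^ n)⁻¹ = z ^ n * u := by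
    intro n
    induction n with
    | zero => simp
    | succ n ih =>
      calc a ^ (n + 1) * u * (a ^ (n + 1))⁻¹ = a * (a ^ n * u * (a ^ n)⁻¹) * a⁻¹ := by group
        _ = (a * z * a⁻¹) ^ n * (a * u * a⁻¹) := by rw [ih, conj_pow]; group
        _ = _ := by rw [h, e, pow_succ, mul_assoc]
  have h2 := h1 V.index
  rw [vcomm hself (V.pow_index_mem a) hu, mul_inv_cancel_right] at h2
  have h3 : z = 1 := orderOf_eq_one_iff.1 (Nat.eq_one_of_dvd_coprimes
    ((Nat.Prime.coprime_iff_not_dvd hp.out).2 hidx) (orderOf_dvd_of_pow_eq_one (hVexp z zV))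
    (orderOf_dvd_of_pow_eq_one (mul_eq_right.1 h2.symm)))
  rw [e, h3, one_mul]

include hVexp hidx hself hGV in
theorem cent_le {v : X} (hv : v ∈ V)
    (hab : ∀ a ∈ G ⊓ centralizer ({v} : Set X), ∀ b ∈ G ⊓ centralizer ({v} : Set X), a * b = b * a)
    {k : ℕ} (hk : v ^ k ≠ 1) {c : X} (hc : c ∈ G ⊓ centralizer ({v} : Set X)) :
    Nat.card (centralizer ({v ^ k * c} : Set X)) ≤
      Nat.card (V ⊓ centralizer ({v ^ k * c} : Set X) : Subgroup X) *
        Nat.card (G ⊓ centralizer ({v} : Set X) : Subgroup X) := by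
  have cv : Commute c v := mem_centralizer_singleton_iff.1 hc.2
  have hm : c ^ V.index = 1 := by
    rw [hGV.symm.index_eq_card]
    exact congrArg Subtype.val (pow_card_eq_one' (G := G) (x := ⟨c, hc.1⟩))
  have hk' : ¬ p ∣ k := fun ⟨j, e⟩ => hk (by rw [e, pow_mul, hVexp v hv, one_pow])
  obtain ⟨n, hn⟩ := exists_pow_eq_self_of_coprime (x := v) (n := k * V.index)
    (Nat.Coprime.coprime_dvd_right (orderOf_dvd_of_pow_eq_one (hVexp v hv))
      (Nat.Coprime.mul_left ((Nat.Prime.coprime_iff_not_dvd hp.out).2 hk').symm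
        ((Nat.Prime.coprime_iff_not_dvd hp.out).2 hidx).symm))
  have hn' : ((v ^ k * c) ^ V.index) ^ n = v := by
    rw [(cv.symm.pow_left k).mul_pow, hm, mul_one, ← pow_mul v, hn]
  have key : ∀ x ∈ centralizer ({v ^ k * c} : Set X), ∃ y ∈ V ⊓ centralizer ({v ^ k * c} : Set X),
      ∃ g ∈ G ⊓ centralizer ({v} : Set X), y * g = x := by
    intro x hx
    obtain ⟨⟨y, g⟩, rfl⟩ := hGV.2 x
    have h1 : Commute ((y : X) * g) (v ^ k * c) := mem_centralizer_singleton_iff.1 hx
    have h2 : Commute ((y : X) * g) v := hn' ▸ (h1.pow_right _).pow_right n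
    have h3 : Commute (y : X) v := vcomm hself y.2 hv
    have h4 : Commute (g : X) v := by
      have := h3.inv_left.mul_left h2
      rwa [inv_mul_cancel_left] at this
    have gC : (g : X) ∈ G ⊓ centralizer ({v} : Set X) :=
      ⟨g.2, mem_centralizer_singleton_iff.2 h4⟩
    have h5 : Commute (g : X) (v ^ k * c) := (h4.pow_right k).mul_right (hab _ gC _ hc)
    have h6 : Commute (y : X) (v ^ k * c) := by
      have := h1.mul_left h5.inv_left
      rwa [mul_inv_cancel_right] at this
    exact ⟨y, ⟨y.2, mem_centralizer_singleton_iff.2 h6⟩, g, gC, rfl⟩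
  choose y hy g hg e using key
  rw [← Nat.card_prod]
  exact Nat.card_le_card_of_injective (fun x : centralizer ({v ^ k * c} : Set X) =>
    ((⟨y x x.2, hy x x.2⟩, ⟨g x x.2, hg x x.2⟩) :
      (V ⊓ centralizer ({v ^ k * c} : Set X) : Subgroup X) ×
        (G ⊓ centralizer ({v} : Set X) : Subgroup X))) fun a b h => Subtype.ext (by
      have h1 : y a a.2 = y b b.2 := congrArg (fun q => (q.1 : X)) h
      have h2 : g a a.2 = g b b.2 := congrArg (fun q => (q.2 : X)) h
      rw [← e a a.2, ← e b b.2, h1, h2])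

include hVexp hidx hself hGV in
theorem knorr1 {v : X} (hv : v ∈ V) (v1 : v ≠ 1)
    (hab : ∀ a ∈ G ⊓ centralizer ({v} : Set X), ∀ b ∈ G ⊓ centralizer ({v} : Set X), a * b = b * a) :
    Nat.card (ConjClasses X) ≤ Nat.card V := by
  classical
  set C := G ⊓ centralizer ({v} : Set X) with hC
  set A := zpowers v ⊔ C with hA
  have hdec : ∀ a ∈ A, ∃ k : ℕ, ∃ c ∈ C, v ^ k * c = a := by
    intro a ha
    have hn : C ≤ normalizer (zpowers v : Set X) := fun c hc =>
      centralizer_le_normalizer _ (by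
        rintro _ ⟨k, rfl⟩
        exact ((show Commute c v from mem_centralizer_singleton_iff.1 hc.2).zpow_right k).symm)
    have : a ∈ ((zpowers v ⊔ C : Subgroup X) : Set X) := ha
    rw [coe_mul_of_right_le_normalizer_left _ _ hn] at this
    obtain ⟨x, hx, c, hc, rfl⟩ := this
    obtain ⟨k, rfl⟩ := mem_powers_iff_mem_zpowers.2 hx
    exact ⟨k, c, hc, rfl⟩
  haveI : IsMulCommutative A := ⟨⟨fun a b => Subtype.ext (by
    obtain ⟨k, c, hc, e⟩ := hdec a a.2
    obtain ⟨k', c', hc', e'⟩ := hdec b b.2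
    have h1 : Commute c v := mem_centralizer_singleton_iff.1 hc.2
    have h2 : Commute c' v := mem_centralizer_singleton_iff.1 hc'.2
    have : Commute (v ^ k * c) (v ^ k' * c') :=
      (((Commute.refl v).pow_pow k k').mul_right (h2.symm.pow_left k)).mul_left
        ((h1.pow_right k').mul_right (hab _ hc _ hc'))
    rw [e, e'] at this
    exact this)⟩⟩
  haveI : IsMulCommutative V := ⟨⟨fun a b => Subtype.ext (vcomm hself a.2 b.2)⟩⟩
  letI := Fintype.ofFinite A
  letI := Fintype.ofFinite (A →* ℂˣ)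
  let ρ : A →* MulAut V := MulAut.conjNormal.comp A.subtype
  have hρ : ∀ (a : A) (u : V), (ρ a u : X) = a * u * (a : X)⁻¹ := fun a u => rfl
  have vA : v ∈ A := mem_sup_left (mem_zpowers v)
  obtain ⟨w, H, hw, hg, hH, -, hf, hb⟩ := weight ρ (fun a u h => Subtype.ext
    (coprime_fix hVexp hidx hself u.2 (congrArg Subtype.val h))) (v := ⟨v, vA⟩)
    (MulEquiv.ext fun u => Subtype.ext (by
      rw [hρ, vcomm hself hv u.2, mul_inv_cancel_right]; rfl)) ⊤ (fun _ _ _ => trivial)
    (fun _ => 1) ⊥ (fun _ => zero_le_one) good_bot (fun e he => by rw [mem_bot.1 he]; rfl)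
  have CA : C ≤ A := le_sup_right
  have dis : ∀ x ∈ V, x ∈ C → x = 1 := fun x h1 h2 =>
    mem_bot.1 (hGV.disjoint.eq_bot ▸ (⟨h1, h2.1⟩ : x ∈ V ⊓ G))
  have cC : Nat.card (C.subgroupOf A) = Nat.card C :=
    Nat.card_congr (subgroupOfEquivOfLe CA).toEquiv
  have cA : Nat.card C * (C.subgroupOf A).index = Nat.card A := by
    rw [← cC, card_mul_index]
  have b2 : 2 ≤ (C.subgroupOf A).index := by
    have h0 : (C.subgroupOf A).index ≠ 0 := FiniteIndex.index_ne_zero
    have h1 : (C.subgroupOf A).index ≠ 1 := fun e =>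
      v1 (dis v hv ((index_eq_one.1 e).ge (mem_top (⟨v, vA⟩ : A))))
    omega
  have cH : Nat.card C ≤ Nat.card H := by
    obtain ⟨K, hK, hK'⟩ := exists_ann H
    have h1 : Nat.card K ≤ (C.subgroupOf A).index := by
      refine Nat.card_le_card_of_injective (fun a : K => ((a : A) : A ⧸ C.subgroupOf A))
        fun a b h => ?_
      have h2 := QuotientGroup.eq.1 h
      have h3 : (a : A)⁻¹ * b ∈ K := mul_mem (inv_mem a.2) b.2
      have h4 : (((a : A)⁻¹ * b : A) : X) ∈ V := by
        rw [← hself]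
        intro u hu
        have := congrArg Subtype.val (hf _ ((hK' _).1 h3) ⟨u, hu⟩ trivial)
        rw [hρ] at this
        exact (mul_inv_eq_iff_eq_mul.1 this).symm
      exact Subtype.ext (inv_mul_eq_one.1 (Subtype.ext (dis _ h4 h2)))
    rw [← hK, card_ann]
    have h2 := K.card_mul_index
    rw [← cA] at h2
    have h3 : 0 < (C.subgroupOf A).index := by omega
    refine Nat.le_of_mul_le_mul_right ?_ h3
    rw [← h2, mul_comm K.index]
    exact Nat.mul_le_mul_right _ h1
  have hth : ∀ (χ : IrrCharacter X) (a : A), th (fun l => H19.mu l χ) a = (χ : X → ℂ) a :=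
    fun χ => th_eq (f := fun a : A => (χ : X → ℂ) a) fun l => H19.mu_eq_sum l χ
  have low : ∀ χ : IrrCharacter X,
      (((C.subgroupOf A).index : ℝ) - 1) * (Nat.card A * (2 * Nat.card H)) ≤
        ∑ a : A, w a * ‖(χ : X → ℂ) a‖ ^ 2 * sB (ann (C.subgroupOf A)) a := by
    intro χ
    have := hg.final hw (B := ann (C.subgroupOf A)) hH (t := fun l => H19.mu l χ) ?_ ?_
    · simpa only [hth, card_ann] using this
    · intro m hm e
      refine MonoidHom.ext fun a => ?_
      obtain ⟨k, c, hc, h⟩ := hdec a a.2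
      have : a = (⟨v, vA⟩ : A) ^ k * ⟨c, CA hc⟩ := Subtype.ext h.symm
      rw [this, map_mul, map_pow, e, mem_ann.1 hm ⟨c, CA hc⟩ hc]
      simp
    · obtain ⟨n, ρ', -, e⟩ := χ.2
      have hn : (χ : X → ℂ) 1 = n := by rw [← e, Representation.char_one]; simp
      exact th_ne_zero (p := p) (n := n) (Subtype.ext (hVexp v hv)) (by rw [hth]; exact hn)
        fun h => hidx (h.trans (χ.2.degree_dvd_index_of_comm hn V inferInstance))
  have up : ∀ a : A, w a * Nat.card (centralizer ({(a : X)} : Set X)) * sB (ann (C.subgroupOf A)) a ≤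
      if a ∈ C.subgroupOf A then 0 else
        (Nat.card V * Nat.card C : ℝ) * (2 * (C.subgroupOf A).index) := by
    intro a
    split_ifs with ha
    · rw [sB_eq_zero fun m hm => mem_ann.1 hm a ha, mul_zero]
    refine mul_le_mul ?_ (card_ann (C.subgroupOf A) ▸ sB_le _ a) (sB_nonneg _ _) (by positivity)
    obtain ⟨k, c, hc, e⟩ := hdec a a.2
    have h1 := cent_le hVexp hidx hself hGV hv hab (k := k)
      (fun h => ha (by rw [h, one_mul] at e; exact mem_subgroupOf.2 (e ▸ hc))) hc
    rw [e] at h1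
    have h2 : Nat.card (V ⊓ centralizer ({(a : X)} : Set X) : Subgroup X) =
        Nat.card ((ps ρ a).ker ⊓ ⊤ : Subgroup V) := by
      rw [← Nat.card_congr (subgroupOfEquivOfLe (inf_le_left :
        V ⊓ centralizer ({(a : X)} : Set X) ≤ V)).toEquiv]
      congr 2
      ext u
      simp only [mem_subgroupOf, Subgroup.mem_inf, u.2, true_and, mem_top, and_true, mem_ker_ps,
        mem_centralizer_singleton_iff, Subtype.ext_iff, hρ, mul_inv_eq_iff_eq_mul]
      exact eq_comm
    have h3 := hb a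
    rw [one_mul, card_top, ← h2] at h3
    have h4 : (Nat.card (centralizer ({(a : X)} : Set X)) : ℝ) ≤
        Nat.card (V ⊓ centralizer ({(a : X)} : Set X) : Subgroup X) * Nat.card C := by
      exact_mod_cast h1
    calc _ ≤ w a * (Nat.card (V ⊓ centralizer ({(a : X)} : Set X) : Subgroup X) * Nat.card C) :=
          mul_le_mul_of_nonneg_left h4 (hw a)
      _ ≤ _ := by
          rw [← mul_assoc]
          exact mul_le_mul_of_nonneg_right h3 (Nat.cast_nonneg _)
  have tot := sum_le_sum fun χ (_ : χ ∈ (univ : Finset (IrrCharacter X))) => low χ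
  rw [sum_comm, sum_const, card_univ, ← Nat.card_eq_fintype_card, Cfsg.Agent.S0133.result,
    nsmul_eq_mul] at tot
  have e1 : ∀ a : A, ∑ χ : IrrCharacter X, w a * ‖(χ : X → ℂ) a‖ ^ 2 * sB (ann (C.subgroupOf A)) a =
      w a * Nat.card (centralizer ({(a : X)} : Set X)) * sB (ann (C.subgroupOf A)) a := fun a => by
    rw [← sum_mul, ← mul_sum, sum_normSq_irr]
  rw [sum_congr rfl fun a _ => e1 a] at tot
  have t2 := tot.trans (sum_le_sum fun a _ => up a)
  rw [sum_ite, sum_const_zero, zero_add, sum_const, nsmul_eq_mul] at t2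
  have e2 : (#(univ.filter fun a : A => ¬ a ∈ C.subgroupOf A) : ℝ) =
      Nat.card C * (((C.subgroupOf A).index : ℝ) - 1) := by
    have h1 := card_filter_add_card_filter_not (s := (univ : Finset A)) (· ∈ C.subgroupOf A)
    rw [card_univ, ← Nat.card_eq_fintype_card, ← cA, ← Fintype.card_subtype,
      ← Nat.card_eq_fintype_card, cC] at h1
    have h2 : (Nat.card C : ℝ) + #(univ.filter fun a : A => ¬ a ∈ C.subgroupOf A) =
      Nat.card C * (C.subgroupOf A).index := by exact_mod_cast h1
    linarith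
  rw [e2, ← cA] at t2
  push_cast at t2
  have r1 : (2 : ℝ) ≤ (C.subgroupOf A).index := by exact_mod_cast b2
  have r2 : (Nat.card C : ℝ) ≤ Nat.card H := by exact_mod_cast cH
  have r3 : (0 : ℝ) < Nat.card C := by exact_mod_cast Nat.card_pos
  generalize ((C.subgroupOf A).index : ℝ) = b at *
  have r4 : (0 : ℝ) < (b - 1) * (Nat.card C * b * (2 * Nat.card C)) := by
    have : 0 < b - 1 := by linarith
    positivity
  have r5 : (Nat.card (ConjClasses X) : ℝ) * ((b - 1) * (Nat.card C * b * (2 * Nat.card C))) ≤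
      Nat.card V * ((b - 1) * (Nat.card C * b * (2 * Nat.card C))) := by
    refine le_trans (mul_le_mul_of_nonneg_left ?_ (Nat.cast_nonneg _)) (t2.trans (le_of_eq (by ring)))
    have : 0 ≤ b - 1 := by linarith
    gcongr
  exact_mod_cast le_of_mul_le_mul_right r5 r4

include hVexp hidx hself hGV in
theorem knorr {v : X} (hv : v ∈ V)
    (hab : ∀ a ∈ G ⊓ centralizer ({v} : Set X), ∀ b ∈ G ⊓ centralizer ({v} : Set X), a * b = b * a) :
    Nat.card (ConjClasses X) ≤ Nat.card V := by
  by_cases v1 : v ≠ 1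
  · exact knorr1 hVexp hidx hself hGV hv v1 hab
  rw [not_not] at v1
  subst v1
  rcases V.bot_or_exists_ne_one with h | ⟨u, hu, u1⟩
  · have : V = ⊤ := by
      rw [← hself, h, eq_top_iff]
      intro x _ y hy
      rw [mem_bot.1 hy, one_mul, mul_one]
    rw [this, card_top]
    exact Nat.card_le_card_of_surjective _ ConjClasses.mk_surjective
  · exact knorr1 hVexp hidx hself hGV hu u1 fun a ha b hb => hab a
      ⟨ha.1, mem_centralizer_singleton_iff.2 (by simp)⟩ b
      ⟨hb.1, mem_centralizer_singleton_iff.2 (by simp)⟩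

end H26Kn
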