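import Cfsg.Agent.H25.EF0

/-! Clifford bound and covering lemma for lifts of alternating groups. -/

set_option autoImplicit false
set_option linter.unusedSectionVars false

namespace H26.Nsp

open Equiv Equiv.Perm Module H25.AW H25.EF
universe u

theorem cliff0 {k W : Type*} [Field k] [IsAlgClosed k] [AddCommGroup W] [Module k W]
    [FiniteDimensional k W] [Nontrivial W] (h2 : (2 : k) ≠ 0) (e f : Fin 5 → End k W)
    (a b : Fin 5 → k) (ha : ∀ i, a i ≠ 0) (hb : ∀ i, b i ≠ 0)
    (e2 : ∀ i, e i * e i = a i • 1) (f2 : ∀ i, f i * f i = b i • 1)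
    (ee : ∀ i j, i ≠ j → e i * e j = -(e j * e i)) (ff : ∀ i j, i ≠ j → f i * f j = -(f j * f i))
    (ef : ∀ i j, e i * f j = -(f j * e i)) : 32 ≤ finrank k W := by
  have fe : ∀ i j, f j * e i = -(e i * f j) := fun i j => by rw [ef, neg_neg]
  have c1 : ∀ i j, i ≠ j → e i * (e j * f j) = (e j * f j) * e i := fun i j h => by
    rw [← mul_assoc, ee i j h, neg_mul, mul_assoc, ef i j, mul_neg, neg_neg, mul_assoc]
  have c2 : ∀ i j, i ≠ j → f i * (e j * f j) = (e j * f j) * f i := fun i j h => by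
    rw [← mul_assoc, fe j i, neg_mul, mul_assoc, ff i j h, mul_neg, neg_neg, mul_assoc]
  have c3 : ∀ i, (e i * f i) * e i = -(e i * (e i * f i)) := fun i => by
    rw [mul_assoc, fe i i, mul_neg]
  obtain ⟨χ, hχ⟩ := exists_wt (fun j => e j * f j) (fun i j => by
    by_cases h : i = j
    · rw [h]
    · exact Commute.mul_left (c1 i j h) (c2 i j h)) ⊤ top_ne_bot fun _ _ _ => trivial
  have inj : ∀ i v, e i v = 0 → v = 0 := fun i v h => by
    have := congrArg (fun g : End k W => g v) (e2 i)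
    simp only [End.mul_apply, h, map_zero, LinearMap.smul_apply, End.one_apply] at this
    exact (smul_eq_zero.1 this.symm).resolve_left (ha i)
  have inj' : ∀ i v, f i v = 0 → v = 0 := fun i v h => by
    have := congrArg (fun g : End k W => g v) (f2 i)
    simp only [End.mul_apply, h, map_zero, LinearMap.smul_apply, End.one_apply] at this
    exact (smul_eq_zero.1 this.symm).resolve_left (hb i)
  have n0 : ∀ j, χ j ≠ 0 := fun j h => by
    obtain ⟨v, -, v0, hv⟩ := hχ
    have := hv j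
    rw [h, zero_smul, End.mul_apply] at this
    exact v0 (inj' _ _ (inj _ _ this))
  have key : ∀ S : Finset (Fin 5), Wt (fun j => e j * f j) ⊤ fun j => if j ∈ S then -χ j else χ j := by
    intro S
    induction S using Finset.induction_on with
    | empty => simpa using hχ
    | insert i S hi ih =>
      obtain ⟨v, -, v0, hv⟩ := ih
      refine ⟨e i v, trivial, fun h => v0 (inj _ _ h), fun j => ?_⟩
      have hj := hv j
      by_cases h : j = i
      · subst h
        simp only [hi, if_false] at hj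
        simp only [Finset.mem_insert_self, if_true]
        rw [← End.mul_apply, c3, LinearMap.neg_apply, End.mul_apply, hj, map_smul, neg_smul]
      · simp only [Finset.mem_insert, h, false_or]
        rw [← End.mul_apply, ← c1 i j (Ne.symm h), End.mul_apply, hj, map_smul]
  have := card_le_of_wt (fun (S : Finset (Fin 5)) j => if j ∈ S then -χ j else χ j)
    (fun S S' h => by
      ext j
      have hj := congrFun h j
      have : -χ j ≠ χ j := fun e => n0 j (by
        have : (2 : k) * χ j = 0 := by linear_combination -e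
        exact (mul_eq_zero.1 this).resolve_left h2)
      by_cases h1 : j ∈ S <;> by_cases h3 : j ∈ S' <;> simp only [h1, h3, if_true, if_false] at hj ⊢
      exacts [(this hj).elim, (this hj.symm).elim]) key
  rwa [finrank_top, Fintype.card_finset, Fintype.card_fin] at this

/-- an orthogonal basis -/
def AA : Fin 10 → Fin 10 → ℤ :=
  ![![1,0,0,0,0,0,0,0,0,0], ![0,1,-1,0,0,0,0,0,0,0], ![0,1,1,-2,0,0,0,0,0,0],
    ![0,0,0,0,1,-1,0,0,0,0], ![0,0,0,0,1,1,-2,0,0,0], ![0,0,0,0,0,0,0,1,-1,0],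
    ![0,0,0,0,0,0,0,1,1,-2], ![0,0,0,0,1,1,1,-1,-1,-1], ![0,-2,-2,-2,1,1,1,1,1,1],
    ![-3,1,1,1,1,1,1,1,1,1]]

/-- Gram matrix -/
def GG (a b : Fin 10) : ℤ := ∑ i, ∑ j, AA a i * AA b j * (if i = j then -6 else -2)

theorem GG_spec : ∀ a b : Fin 10, if a = b then GG a b ∣ 6 ^ 4 else GG a b = 0 := by
  decide +kernel

theorem cliff {k W : Type*} [Field k] [IsAlgClosed k] [AddCommGroup W] [Module k W]
    [FiniteDimensional k W] [Nontrivial W] (h6 : (6 : k) ≠ 0) (s : Fin 10 → End k W)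
    (h1 : ∀ i, s i * s i = -3) (h2 : ∀ i j, i ≠ j → s i * s j + s j * s i = -2) :
    32 ≤ finrank k W := by
  have t2 : (2 : k) ≠ 0 := fun e => h6 (by linear_combination 3 * e)
  let f : Fin 10 → End k W := fun a => ∑ i, AA a i • s i
  have hs : ∀ i j, s i * s j + s j * s i = ((if i = j then -6 else -2 : ℤ) : End k W) := fun i j => by
    by_cases h : i = j
    · subst h; rw [h1, if_pos rfl]; norm_num
    · rw [h2 i j h, if_neg h]; norm_num
  have hf : ∀ a b, f a * f b + f b * f a = (GG a b : End k W) := fun a b => by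
    simp only [f, Finset.sum_mul_sum, GG]
    rw [Finset.sum_comm (f := fun i j => AA b i • s i * AA a j • s j), ← Finset.sum_add_distrib]
    push_cast
    refine Finset.sum_congr rfl fun i _ => ?_
    rw [← Finset.sum_add_distrib]
    refine Finset.sum_congr rfl fun j _ => ?_
    have := hs i j
    push_cast at this
    rw [← this, smul_mul_smul_comm, smul_mul_smul_comm, mul_comm (AA b j), ← smul_add, zsmul_eq_mul]
    push_cast
    rfl
  have an : ∀ a b, a ≠ b → f a * f b = -(f b * f a) := fun a b h => by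
    have := GG_spec a b
    rw [if_neg h] at this
    rw [eq_neg_iff_add_eq_zero, hf, this, Int.cast_zero]
  have sq : ∀ a, f a * f a = ((2 : k)⁻¹ * GG a a) • 1 := fun a => by
    have := hf a a
    rw [← two_smul k, ← zsmul_one, ← Int.cast_smul_eq_zsmul k] at this
    rw [mul_smul, ← this, inv_smul_smul₀ t2]
  have nz : ∀ a, (2 : k)⁻¹ * GG a a ≠ 0 := fun a => mul_ne_zero (inv_ne_zero t2) fun e => by
    have := GG_spec a a
    rw [if_pos rfl] at this
    obtain ⟨c, hc⟩ := this
    have := congrArg (Int.cast : ℤ → k) hc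
    push_cast at this
    rw [e, zero_mul] at this
    exact pow_ne_zero 4 h6 (by rw [← this]; norm_num)
  let p : Fin 5 → Fin 10 := ![0, 1, 2, 3, 4]
  let q : Fin 5 → Fin 10 := ![5, 6, 7, 8, 9]
  have pp : ∀ i j, i ≠ j → p i ≠ p j := by decide
  have qq : ∀ i j, i ≠ j → q i ≠ q j := by decide
  have pq : ∀ i j, p i ≠ q j := by decide
  exact cliff0 t2 (fun i => f (p i)) (fun i => f (q i)) _ _ (fun i => nz (p i)) (fun i => nz (q i))
    (fun i => sq _) (fun i => sq _) (fun i j h => an _ _ (pp i j h)) (fun i j h => an _ _ (qq i j h))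
    fun i j => an _ _ (pq i j)

variable {k V : Type} {X : Type u} [Field k] [IsAlgClosed k] [AddCommGroup V] [Module k V]
  [FiniteDimensional k V] [Group X] [Finite X] {ρ : X →* End k V} {φ : X →* Perm (Fin 12)}

/-- covering lemma -/
theorem cov (h : Hy φ) (ce : ∀ z, φ z = 1 → ∀ x, Commute z x) (S : Finset (Fin 12))
    (U : Submodule k V) (hU : ∀ y ∈ fixS φ S, ∀ v ∈ U, ρ y v ∈ U) (h9 : 9 ≤ 12 - S.card)
    (hk : ((12 - S.card : ℕ) : k) ≠ 0) : 12 - S.card ≤ finrank k U + 1 ∨
      ∀ y ∈ fixS φ S, ∀ y' ∈ fixS φ S, ∀ v ∈ U, ρ (y * y') v = ρ (y' * y) v := by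
  let ρ' := Representation.subrepresentation (ρ.comp (fixS φ S).subtype) U fun z _ hv => hU z z.2 _ hv
  have hc : Fintype.card {a // a ∉ S} = 12 - S.card := by rw [card_compl', Fintype.card_fin]
  rcases (h.res S).nd (by rw [hc]; omega) (MonoidHom.ker ρ') with e | e
  · have := (bd.{u} _ k U {a // a ∉ S} (fixS φ S) ρ' (resS φ S) (h.res S) e (by rw [hc]; exact h9)
      rfl).2 (by rwa [hc])
    exact Or.inl (by rwa [hc] at this)
  · refine Or.inr fun y hy y' hy' v hv => ?_
    have d : ∀ y : fixS φ S, ∃ c : fixS φ S, φ c = 1 ∧ ρ' y = ρ' c := fun y => by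
      obtain ⟨z, hz, e1⟩ := e _ ((h.res S).sg y)
      refine ⟨z⁻¹ * y, resS_eq_one (by rw [map_mul, map_inv, e1, inv_mul_cancel]), ?_⟩
      rw [map_mul, (MonoidHom.mem_ker.1 (inv_mem hz) :), one_mul]
    obtain ⟨c, c1, c2⟩ := d ⟨y, hy⟩
    have : ρ' (⟨y, hy⟩ * ⟨y', hy'⟩) = ρ' (⟨y', hy'⟩ * ⟨y, hy⟩) := by
      rw [map_mul, map_mul, c2, ← map_mul, ← map_mul]
      exact congrArg ρ' (Subtype.ext (ce c c1 y').eq)
    exact congrArg Subtype.val (congrArg (fun f : End k U => f ⟨v, hv⟩) this)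

theorem odd_anti (h2 : (2 : k) ≠ 0) {a b : X} {U : Submodule k V} (ha : ∀ v ∈ U, ρ a v ∈ U)
    (hb : ∀ v ∈ U, ρ b v ∈ U) (h : ∀ v ∈ U, ρ a (ρ b v) = -ρ b (ρ a v)) (ho : Odd (finrank k U)) :
    False := by
  have u : ∀ (a : X) (ha : ∀ v ∈ U, ρ a v ∈ U), LinearMap.det ((ρ a).restrict ha) ≠ 0 := fun a ha =>
    (LinearMap.isUnit_det _ ((LinearMap.isUnit_iff_ker_eq_bot _).2 (LinearMap.ker_eq_bot'.2
      fun v hv => by
        by_contra e
        exact rho_ne (ρ := ρ) (fun e' => e (Subtype.ext e')) a (congrArg Subtype.val hv)))).ne_zero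
  have e : (ρ a).restrict ha * (ρ b).restrict hb = (-1 : k) • ((ρ b).restrict hb * (ρ a).restrict ha) := by
    ext v
    exact (h v v.2).trans (neg_one_smul k _).symm
  have := congrArg LinearMap.det e
  rw [LinearMap.det_smul, map_mul, map_mul, ho.neg_one_pow] at this
  exact mul_ne_zero h2 (mul_ne_zero (u a ha) (u b hb)) (by linear_combination this)

theorem ex4 (a b c d : Fin 12) (h : Function.Injective ![a, b, c, d]) :
    ∃ σ : Perm (Fin 12), sign σ = 1 ∧ σ 0 = a ∧ σ 1 = b ∧ σ 2 = c ∧ σ 3 = d := by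
  obtain ⟨τ, hτ⟩ := Perm.exists_extending_pair (![0, 1, 2, 3] : Fin 4 → Fin 12)
    ![a, b, c, d] (by decide) h
  rcases Int.units_eq_one_or (sign τ) with e | e
  · exact ⟨τ, e, hτ 0, hτ 1, hτ 2, hτ 3⟩
  · refine ⟨τ * swap 10 11, by rw [Perm.sign_mul, e, sign_swap (by decide)]; rfl, ?_, ?_, ?_, ?_⟩
    all_goals rw [mul_apply, swap_apply_of_ne_of_ne (by decide) (by decide)]
    exacts [hτ 0, hτ 1, hτ 2, hτ 3]

end H26.Nsp
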