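import Cfsg.Agent.H17.Galois
import Cfsg.Agent.H17.Ortho
import Cfsg.Agent.H17.Inner
import Cfsg.Agent.H19.BrChar

/-! Real vectors for k(GV): basic definitions. -/

set_option autoImplicit false
set_option linter.unusedSectionVars false
set_option linter.unusedVariables false

namespace H26Rv

open Cfsg H17

/-- the span of the characters over the algebraic integers -/
def TT (H : Type*) [Group H] : Submodule (integralClosure ℤ ℂ) (H → ℂ) :=
  Submodule.span _ {χ | IsCharacter H χ}

/-- the function needed for the counting argument -/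
structure Ok {H : Type*} [Group H] (p : ℕ) (O : ValuationSubring ℂ) (π : H → ℕ) (n : ℕ)
    (ψ : H → ℂ) : Prop where
  p1 : ∀ (σ : ℂ ≃+* ℂ) (h : H), ‖σ (ψ h)‖ ^ 2 * (π h : ℝ) ≤ (n : ℝ)
  p2 : ψ 1 = 1
  p3 : ∀ h, IsIntegral ℤ (ψ h)
  p4 : ∀ h, π h ≠ n → ψ h ∈ O.nonunits
  p5 : ∃ N : ℕ, (fun h => (p : ℂ) ^ N * ψ h) ∈ TT H

/-- number of fixed vectors in a submodule -/
noncomputable def fx {p : ℕ} {H U : Type*} [Group H] [AddCommGroup U] [Module (ZMod p) U]
    (ρ : Representation (ZMod p) H U) (W : Submodule (ZMod p) U) (h : H) : ℕ :=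
  Nat.card {u : U // u ∈ W ∧ ρ h u = u}

variable {H : Type*} [Group H] [Finite H]

theorem char_mem {χ : H → ℂ} (h : IsCharacter H χ) : χ ∈ TT H := Submodule.subset_span h

theorem smul_mem {a : ℂ} (ha : IsIntegral ℤ a) {f : H → ℂ} (hf : f ∈ TT H) :
    (fun h => a * f h) ∈ TT H :=
  (TT H).smul_mem (⟨a, ha⟩ : integralClosure ℤ ℂ) hf

theorem const_mem {a : ℂ} (ha : IsIntegral ℤ a) : (fun _ : H => a) ∈ TT H := by
  simpa using smul_mem ha (char_mem (H := H) H17.isCharacter_one)

theorem mul_mem {f g : H → ℂ} (hf : f ∈ TT H) (hg : g ∈ TT H) : (fun h => f h * g h) ∈ TT H := by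
  induction hf using Submodule.span_induction with
  | mem χ hχ =>
    induction hg using Submodule.span_induction with
    | mem ξ hξ => exact char_mem (H17.Cfsg.IsCharacter.mul hχ hξ)
    | zero => convert (TT H).zero_mem using 1; ext h; simp
    | add a b _ _ ha hb => convert (TT H).add_mem ha hb using 1; ext h; simp [mul_add]
    | smul c a _ ha =>
      convert (TT H).smul_mem c ha using 1
      ext h; simp [Algebra.smul_def, mul_left_comm]
  | zero => convert (TT H).zero_mem using 1; ext h; simp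
  | add a b _ _ ha hb => convert (TT H).add_mem ha hb using 1; ext h; simp [add_mul]
  | smul c a _ ha =>
    convert (TT H).smul_mem c ha using 1
    ext h; simp [Algebra.smul_def, mul_assoc]

theorem sum_mem {ι : Type*} (s : Finset ι) {f : ι → H → ℂ} (hf : ∀ i ∈ s, f i ∈ TT H) :
    (fun h => ∑ i ∈ s, f i h) ∈ TT H := by
  convert (TT H).sum_mem hf using 1
  ext h; simp

theorem integral_avg {f : H → ℂ} [Fintype H] (hf : f ∈ TT H) :
    IsIntegral ℤ ((Nat.card H : ℂ)⁻¹ * ∑ h, f h) := by
  induction hf using Submodule.span_induction with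
  | mem χ hχ =>
    obtain ⟨n, hn⟩ := H17.Cfsg.IsCharacter.inner_nat hχ H17.isCharacter_one
    simp only [classInner, map_one, mul_one] at hn
    rw [hn]; exact isIntegral_natCast n
  | zero => simpa using isIntegral_zero
  | add a b _ _ ha hb => simpa [Finset.sum_add_distrib, mul_add] using ha.add hb
  | smul c a _ ha =>
    have h2 : IsIntegral ℤ (c : ℂ) := c.2
    have : ∀ h, (c • a) h = (c : ℂ) * a h := fun h => rfl
    simp only [this, ← Finset.mul_sum]
    rw [mul_left_comm]
    exact h2.mul ha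

theorem Ok.mul {p : ℕ} {O : ValuationSubring ℂ} {π π' : H → ℕ} {n n' : ℕ} {ψ ψ' : H → ℂ}
    (a : Ok p O π n ψ) (b : Ok p O π' n' ψ') :
    Ok p O (fun h => π h * π' h) (n * n') (fun h => ψ h * ψ' h) where
  p1 σ h := by
    have := mul_le_mul (a.p1 σ h) (b.p1 σ h) (by positivity) (by positivity)
    rw [map_mul, norm_mul]; push_cast; nlinarith
  p2 := by simp [a.p2, b.p2]
  p3 h := (a.p3 h).mul (b.p3 h)
  p4 h hh := by
    by_cases h1 : π h = n
    · exact H19.nonunits_mul_left (H19.mem_of_isIntegral O (a.p3 h))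
        (b.p4 h fun h2 => hh (by rw [h1, h2]))
    · exact H19.nonunits_mul_right (a.p4 h h1) (H19.mem_of_isIntegral O (b.p3 h))
  p5 := by
    obtain ⟨N, hN⟩ := a.p5
    obtain ⟨M, hM⟩ := b.p5
    refine ⟨N + M, ?_⟩
    convert mul_mem hN hM using 2
    ring

end H26Rv
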