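import Cfsg.Agent.H26.Rv0

/-! Real vectors for k(GV): the statements of the steps. -/

set_option autoImplicit false

namespace H26Rv

open Cfsg H17

universe u

variable (p : ℕ) (H : Type u) [Group H] (O : ValuationSubring ℂ)

/-- the form is invariant -/
def Inv {p : ℕ} {H U : Type*} [Group H] [AddCommGroup U] [Module (ZMod p) U]
    (ρ : Representation (ZMod p) H U) (β : U →ₗ[ZMod p] U →ₗ[ZMod p] ZMod p) : Prop :=
  ∀ h x y, β (ρ h x) (ρ h y) = β x y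

/-- the submodule is invariant -/
def St {p : ℕ} {H U : Type*} [Group H] [AddCommGroup U] [Module (ZMod p) U]
    (ρ : Representation (ZMod p) H U) (M : Submodule (ZMod p) U) : Prop :=
  ∀ h, ∀ x ∈ M, ρ h x ∈ M

def InvP : Prop := ∀ (U : Type u) [AddCommGroup U] [Module (ZMod p) U] [Finite U]
  (ρ : Representation (ZMod p) H U), ∃ N : ℕ, (fun h => (p : ℂ) ^ N / (fx ρ ⊤ h : ℂ)) ∈ TT H

def GaussP : Prop := ∀ (U : Type u) [AddCommGroup U] [Module (ZMod p) U] [Finite U]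
  (ρ : Representation (ZMod p) H U) (γ : U →ₗ[ZMod p] U →ₗ[ZMod p] ZMod p), Inv ρ γ →
  (∀ x, (∀ y, γ x y + γ y x = 0) → x = 0) → ∃ ψ, Ok p O (fx ρ ⊤) (Nat.card U) ψ

def WeilP : Prop := p ≠ 2 → ∀ (U : Type u) [AddCommGroup U] [Module (ZMod p) U] [Finite U]
  (ρ : Representation (ZMod p) H U) (β : U →ₗ[ZMod p] U →ₗ[ZMod p] ZMod p), Inv ρ β →
  (∀ x, β x x = 0) → (∀ x, (∀ y, β x y = 0) → x = 0) → ∃ ψ, Ok p O (fx ρ ⊤) (Nat.card U) ψ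

def TwoP : Prop := p = 2 → ∀ (U : Type u) [AddCommGroup U] [Module (ZMod p) U] [Finite U]
  (ρ : Representation (ZMod p) H U) (β : U →ₗ[ZMod p] U →ₗ[ZMod p] ZMod p), Inv ρ β →
  (∀ x, β x x = 0) → ∃ γ : U →ₗ[ZMod p] U →ₗ[ZMod p] ZMod p, Inv ρ γ ∧ ∀ x y, γ x y + γ y x = β x y

def DecP : Prop := ∀ (U : Type u) [AddCommGroup U] [Module (ZMod p) U] [Finite U]
  (ρ : Representation (ZMod p) H U) (β : U →ₗ[ZMod p] U →ₗ[ZMod p] ZMod p), Inv ρ β →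
  (∀ x, (∀ y, β x y = 0) → x = 0) → ∀ M : Submodule (ZMod p) U, St ρ M → M ≠ ⊥ → M ≠ ⊤ →
  (∀ x ∈ M, ∀ y, β x y + β y x = 0) →
  ∃ A B : Submodule (ZMod p) U, St ρ A ∧ St ρ B ∧ IsCompl A B ∧ B ≠ ⊤ ∧
    (∀ x ∈ B, (∀ y ∈ B, β x y = 0) → x = 0) ∧
    ((A ≠ ⊤ ∧ ∀ x ∈ A, (∀ y ∈ A, β x y = 0) → x = 0) ∨
      ∃ γ : U →ₗ[ZMod p] U →ₗ[ZMod p] ZMod p, Inv ρ γ ∧
        ∀ x ∈ A, (∀ y ∈ A, γ x y + γ y x = 0) → x = 0)

def IndP : Prop := ∀ (U : Type u) [AddCommGroup U] [Module (ZMod p) U] [Finite U]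
  (ρ : Representation (ZMod p) H U) (β : U →ₗ[ZMod p] U →ₗ[ZMod p] ZMod p), Inv ρ β →
  (∀ x, (∀ y, β x y = 0) → x = 0) → ∃ ψ, Ok p O (fx ρ ⊤) (Nat.card U) ψ

end H26Rv
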