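import Cfsg.Agent.H26.Rv1
import Cfsg.Agent.H26.Kn3
import Cfsg.Agent.H20.Ht2

/-! Real vectors for k(GV): the counting argument. -/

set_option autoImplicit false
set_option linter.unusedSectionVars false
set_option linter.unusedVariables false

namespace H26Rv

open Cfsg H17 H19 Subgroup Finset

theorem count {X : Type*} [Group X] [Finite X] {p : ℕ} [hp : Fact p.Prime] {O : ValuationSubring ℂ}
    [CharP (kk O) p] {V : Subgroup X} [V.Normal] (hc : IsMulCommutative V)
    (hidx : ¬ p ∣ V.index) {v : X} (hv : v ^ p = 1) (K : Subgroup X) (hK : ¬ p ∣ Nat.card K)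
    {π : K → ℕ} {m : ℕ} (hm : 0 < m) {ψ : K → ℂ} (hψ : Ok p O π m ψ) (hf : ∀ h, π h = m → h = 1)
    (vh : ∀ χ : X → ℂ, IsCharacter X χ → (fun h : K => χ (v * h)) ∈ TT K)
    (c : K → ℕ) (cen : ∀ h, c h * m ≤ Nat.card K * Nat.card V * π h) [Fintype K]
    (sm : ∀ a : K → ℂ, ∑ χ : IrrCharacter X, ‖∑ i : K, χ.1 (v * i) * a i‖ ^ 2 ≤
      ∑ i, ‖a i‖ ^ 2 * (c i : ℝ)) :
    Nat.card (ConjClasses X) ≤ Nat.card V := by
  classical
  have k0 : (Nat.card K : ℂ) ≠ 0 := Nat.cast_ne_zero.2 Nat.card_pos.ne'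
  let s : IrrCharacter X → ℂ := fun χ => ∑ h : K, χ.1 (v * h) * ψ h
  let n : IrrCharacter X → ℂ := fun χ => (Nat.card K : ℂ)⁻¹ * s χ
  have si : ∀ χ, IsIntegral ℤ (s χ) := fun χ => IsIntegral.sum _ fun h _ =>
    (H17.Cfsg.IsCharacter.isIntegral χ.2.isCharacter _).mul (hψ.p3 h)
  have hint : ∀ χ, IsIntegral ℤ (n χ) := by
    intro χ
    obtain ⟨N, hN⟩ := hψ.p5
    have h1 := integral_avg (mul_mem (vh _ χ.2.isCharacter) hN)
    have h2 : (Nat.card K : ℂ)⁻¹ * ∑ h : K, χ.1 (v * h) * ((p : ℂ) ^ N * ψ h) = (p : ℂ) ^ N * n χ := by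
      simp only [n, s, mul_sum]
      exact sum_congr rfl fun h _ => by ring
    rw [h2] at h1
    obtain ⟨x, y, e⟩ : IsCoprime ((p : ℤ) ^ N) (Nat.card K : ℤ) :=
      (Nat.isCoprime_iff_coprime.2 ((Nat.Prime.coprime_iff_not_dvd hp.out).2 hK)).pow_left
    have e' : (x : ℂ) * (p : ℂ) ^ N + y * (Nat.card K : ℂ) = 1 := by exact_mod_cast e
    have h3 : n χ = x * ((p : ℂ) ^ N * n χ) + y * s χ := by
      have : s χ = (Nat.card K : ℂ) * n χ := by simp only [n]; field_simp
      rw [this]; linear_combination (-n χ) * e'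
    rw [h3]
    exact ((isIntegral_intCast x).mul h1).add ((isIntegral_intCast y).mul (si χ))
  have hne : ∀ χ, n χ ≠ 0 := by
    intro χ h0
    have h1 : s χ = 0 := (mul_eq_zero.1 h0).resolve_left (inv_ne_zero k0)
    simp only [s] at h1
    rw [← add_sum_erase _ _ (mem_univ (1 : K)), hψ.p2] at h1
    have h2 : ∑ h ∈ univ.erase (1 : K), χ.1 (v * h) * ψ h ∈ O.nonunits :=
      _root_.sum_mem fun h hh => nonunits_mul_left
        (mem_of_isIntegral O (H17.Cfsg.IsCharacter.isIntegral χ.2.isCharacter _))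
        (hψ.p4 h fun e => ne_of_mem_erase hh (hf h e))
    have h3 := char_sub_one_mem (O := O) χ.2.isCharacter (u := v) (isPElt_iff.2 ⟨1, by simpa using hv⟩)
    obtain ⟨d, ρ', -, e⟩ := χ.2
    have hn : (χ : X → ℂ) 1 = d := by rw [← e, Representation.char_one]; simp
    have h4 : (d : ℂ) ∈ O.nonunits := by
      have := neg_mem (add_mem h2 h3)
      convert this using 1
      simp only [OneMemClass.coe_one, mul_one] at h1
      linear_combination h1 - hn
    exact hidx (((natCast_mem_nonunits_iff p d).1 h4).trans (χ.2.degree_dvd_index_of_comm hn V hc))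
  have key := H20.sum_le_of_cm univ n (fun χ _ => hint χ) (fun χ _ => hne χ) (fun _ => 1)
    (fun _ _ => zero_le_one) (N := Nat.card V) fun σ => ?_
  · rw [sum_const, card_univ, ← Nat.card_eq_fintype_card, Cfsg.Agent.S0133.result] at key
    simpa using key
  let E : IrrCharacter X → IrrCharacter X := fun χ => ⟨_, χ.2.map_ringHom (σ : ℂ →+* ℂ)⟩
  have hE : Function.Bijective E := Finite.injective_iff_bijective.1 fun a b h =>
    Subtype.ext (funext fun g => σ.injective (congrFun (congrArg Subtype.val h) g))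
  have kp : (0 : ℝ) < Nat.card K := by exact_mod_cast Nat.card_pos
  have mp : (0 : ℝ) < m := by exact_mod_cast hm
  have h1 : ∀ χ, 1 * ‖σ (n χ)‖ ^ 2 =
      (Nat.card K : ℝ)⁻¹ ^ 2 * ‖∑ h : K, (E χ).1 (v * h) * σ (ψ h)‖ ^ 2 := by
    intro χ
    simp only [n, s, E, map_mul, map_inv₀, map_natCast, map_sum, norm_mul, norm_inv,
      Complex.norm_natCast, one_mul, mul_pow, RingHom.coe_coe]
  rw [sum_congr rfl fun χ _ => h1 χ, ← mul_sum,
    hE.sum_comp fun χ => ‖∑ h : K, χ.1 (v * h) * σ (ψ h)‖ ^ 2]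
  have h2 : ∀ h : K, ‖σ (ψ h)‖ ^ 2 * (c h : ℝ) ≤ Nat.card K * Nat.card V := by
    intro h
    have a1 := hψ.p1 σ h
    have a2 : (c h : ℝ) * m ≤ Nat.card K * Nat.card V * π h := by exact_mod_cast cen h
    refine le_of_mul_le_mul_right ?_ mp
    have a3 := mul_le_mul_of_nonneg_left a2 (sq_nonneg ‖σ (ψ h)‖)
    have a4 := mul_le_mul_of_nonneg_left a1 (show (0 : ℝ) ≤ Nat.card K * Nat.card V by positivity)
    nlinarith
  have h3 := (sm fun h => σ (ψ h)).trans (sum_le_sum fun h _ => h2 h)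
  rw [sum_const, card_univ, ← Nat.card_eq_fintype_card, nsmul_eq_mul] at h3
  refine (mul_le_mul_of_nonneg_left h3 (by positivity)).trans (le_of_eq ?_)
  field_simp

end H26Rv
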