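import Cfsg.Agent.H26.Rv2
import Cfsg.Agent.H22.Wl
import Cfsg.Agent.H13.Gs
import Cfsg.Agent.H17.Vh
import Cfsg.Agent.H24.Dec
import Cfsg.Agent.H1.Inv2
import Cfsg.Agent.H9.Two
import Cfsg.Agent.H4.Ind
import Cfsg.Agent.H27.Sm
import Cfsg.Agent.H25.Cen
import Cfsg.Agent.H29.Tr

/-! Real vectors for k(GV): assembly. -/

set_option autoImplicit false
set_option linter.unusedSectionVars false
set_option linter.unusedVariables false

namespace H26Rv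

open Cfsg H17 H19 Subgroup

theorem real {X : Type*} [Group X] [Finite X] (p : ℕ) [Fact p.Prime] (V : Subgroup X) [V.Normal] (hVexp : ∀ v ∈ V, v ^ p = 1) (hidx : ¬ p ∣ V.index) (hself : Subgroup.centralizer (V : Set X) = V) (G : Subgroup X) (hGV : Subgroup.IsComplement' V G) (v : X) (hv : v ∈ V) (U : Subgroup X) (hUV : U ≤ V) (hUinv : ∀ h ∈ G, h * v * h⁻¹ = v → ∀ u ∈ U, h * u * h⁻¹ ∈ U) (hUfaith : ∀ h ∈ G, h * v * h⁻¹ = v → (∀ u ∈ U, h * u * h⁻¹ = u) → h = 1) (β : X → X → ZMod p) (hβl : ∀ u ∈ U, ∀ u' ∈ U, ∀ w ∈ U, β (u * u') w = β u w + β u' w) (hβr : ∀ u ∈ U, ∀ w ∈ U, ∀ w' ∈ U, β u (w * w') = β u w + β u w') (hβinv : ∀ h ∈ G, h * v * h⁻¹ = v → ∀ u ∈ U, ∀ w ∈ U, β (h * u * h⁻¹) (h * w * h⁻¹) = β u w) (hβnd : ∀ u ∈ U, (∀ w ∈ U, β u w = 0) → u = 1) : Nat.card (ConjClasses X) ≤ Nat.card V := by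
  classical
  obtain ⟨O, _⟩ := exists_val p
  set K := G ⊓ centralizer ({v} : Set X) with hKdef
  have hK1 : ∀ h ∈ K, h * v = v * h := fun h hh => mem_centralizer_singleton_iff.1 hh.2
  have hK2 : ∀ h ∈ K, h * v * h⁻¹ = v := fun h hh => by rw [hK1 h hh, mul_inv_cancel_right]
  have hK : ¬ p ∣ Nat.card K := fun h => hidx (by
    rw [hGV.symm.index_eq_card]; exact h.trans (card_dvd_of_le inf_le_left))
  have hi : InvP p K := H1.Inv2.inv
  obtain ⟨ψ, hψ⟩ := H29.Tr.tr (O := O) K U (H4.Ind.ind (H13.Gs.gauss hK hi) (H22.Wl.weil hi) (H9.Two.two hK) (H24.Dec.dec hK))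
    (fun a ha b hb => H26Kn.vcomm hself (hUV ha) (hUV hb)) (fun a ha => hVexp a (hUV ha))
    (fun h hh => hUinv h hh.1 (hK2 h hh)) β hβl hβr (fun h hh => hβinv h hh.1 (hK2 h hh)) hβnd
  letI := Fintype.ofFinite K
  refine count ⟨⟨fun a b => Subtype.ext (H26Kn.vcomm hself a.2 b.2)⟩⟩ hidx (hVexp v hv) K hK
    Nat.card_pos hψ ?_ (fun χ hχ => H17.Vh.vh K hK1 hχ) _ (fun h => H25.Cen.cen hVexp hidx hself hGV hv hUV h)
    fun a => H27.Sm.sm (fun i : K => v * (i : X)) a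
  intro h e
  refine Subtype.ext (hUfaith h h.2.1 (hK2 h h.2) fun u hu => ?_)
  have hb := (Nat.bijective_iff_injective_and_card
    (fun x : {u : X // u ∈ U ∧ (h : X) * u * (h : X)⁻¹ = u} => (⟨x.1, x.2.1⟩ : U))).2
    ⟨fun a b e => Subtype.ext (congrArg Subtype.val e :), e⟩
  obtain ⟨x, hx⟩ := hb.2 ⟨u, hu⟩
  have : (x : X) = u := congrArg Subtype.val hx
  exact this ▸ x.2.2

end H26Rv
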