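import Cfsg.Agent.H21.CD5
import Cfsg.Agent.H1.Frattini
import Cfsg.Agent.S0044

/-! Squarefree character degrees: derived length at most four. -/

set_option autoImplicit false
set_option linter.unusedSectionVars false

namespace H26.Sqf

open Subgroup Cfsg H21 CF

/-- regular orbits of abelian groups acting coprimely on abelian groups -/
theorem reg {B A : Type*} [Group B] [Finite B] [CommGroup A] (f : B →* Monoid.End A)
    (hc : ∀ b c x, f b (f c x) = f c (f b x)) {n : ℕ} (hn : ∀ c x, f (c ^ n) x = x)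
    (hA : ∀ a : A, a ^ n = 1 → a = 1) : ∃ a, ∀ b, f b a = a → ∀ x, f b x = x := by
  have fix : ∀ c w, f c (f c w * w⁻¹) = f c w * w⁻¹ → f c w = w := fun c w h => by
    have h1 : ∀ i : ℕ, f (c ^ i) w = (f c w * w⁻¹) ^ i * w := fun i => by
      induction i with
      | zero => simp
      | succ i ih =>
        rw [pow_succ', map_mul, Monoid.End.coe_mul, Function.comp_apply, ih, map_mul, map_pow, h, pow_succ,
          mul_assoc, inv_mul_cancel_right]
    have h2 := h1 n
    rw [hn, eq_comm, mul_eq_right] at h2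
    exact mul_inv_eq_one.1 (hA _ h2)
  obtain ⟨a, -, ha⟩ := (measure fun a : A => {b | f b a = a}.ncard).wf.has_min Set.univ ⟨1, trivial⟩
  refine ⟨a, fun c hca x => ?_⟩
  by_contra hx
  have lt : {b | f b (a * (f c x * x⁻¹)) = a * (f c x * x⁻¹)} ⊂ {b | f b a = a} := by
    refine ⟨fun b hb => ?_, fun h => hx (fix c x ?_)⟩
    · have e1 : f b a * a⁻¹ = f c (x * (f b x)⁻¹) * (x * (f b x)⁻¹)⁻¹ := by
        have : f b (a * (f c x * x⁻¹)) = a * (f c x * x⁻¹) := hb
        rw [map_mul, map_mul, map_inv, hc b c] at this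
        rw [map_mul, map_inv, eq_mul_inv_of_mul_eq this]
        simp only [mul_inv_rev, inv_inv, mul_comm, mul_left_comm, mul_assoc, mul_inv_cancel_left]
      have e2 := fix c (x * (f b x)⁻¹) (by rw [← e1, map_mul, map_inv, ← hc, hca])
      rw [e2, mul_inv_cancel] at e1
      exact mul_inv_eq_one.1 e1
    · have : f c (a * (f c x * x⁻¹)) = a * (f c x * x⁻¹) := h hca
      rwa [map_mul, hca, mul_right_inj] at this
  exact ha _ trivial (Set.ncard_lt_ncard lt)

universe u
variable {G : Type u} [Group G] [Finite G]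

theorem sq_of_dvd {a b : ℕ} (h : a ∣ b) (hb : Squarefree b) : Squarefree a := hb.squarefree_of_dvd h

theorem nil_two [hG : Group.IsNilpotent G] (h : DegP Squarefree G) : derivedSeries G 2 = ⊥ := by
  obtain ⟨e⟩ := (Group.isNilpotent_of_finite_tfae.out 0 4 rfl rfl).mp hG
  refine eq_bot_iff.2 fun x hx => mem_bot.2 (e.symm.injective ?_)
  rw [map_one]
  funext p P
  haveI : Fact p.1.Prime := ⟨Nat.prime_of_mem_primeFactors p.2⟩
  have h1 : derivedSeries (P : Subgroup G) 2 = ⊥ := by
    refine dl2 (m := p) fun χ hχ => ?_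
    have a1 := (h.of_dvd (fun _ _ => sq_of_dvd) (P : Subgroup G)) χ hχ
    have a2 := deg_dvd_card (mem_Irr_top.2 hχ)
    obtain ⟨k, hk⟩ := P.isPGroup'.exists_card_eq
    rw [card_top, hk] at a2
    obtain ⟨i, -, hi⟩ := (Nat.dvd_prime_pow Fact.out).1 a2
    rw [hi] at a1 ⊢
    match i, a1 with
    | 0, _ => exact Or.inl rfl
    | 1, _ => exact Or.inr (pow_one _)
    | i + 2, a1 =>
      exact absurd (a1 p ⟨p ^ i, by ring⟩) (Nat.prime_iff.1 Fact.out).not_isUnit
  have h2 := map_derivedSeries_le_derivedSeries ((Pi.evalMonoidHom _ P).comp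
    ((Pi.evalMonoidHom _ p).comp e.symm.toMonoidHom)) 2 (mem_map_of_mem _ hx)
  rw [h1] at h2
  exact mem_bot.1 h2

/-- action on linear characters -/
def act (N : Subgroup G) [N.Normal] : G →* Monoid.End (N →* ℂˣ) where
  toFun g := MonoidHom.mk' (fun l => l.comp (MulAut.conjNormal g⁻¹ : MulAut N).toMonoidHom) fun _ _ => rfl
  map_one' := by
    ext l n
    show ((l (MulAut.conjNormal (1 : G)⁻¹ n) : ℂˣ) : ℂ) = l n
    simp
  map_mul' a b := by
    ext l n
    show ((l (MulAut.conjNormal (a * b)⁻¹ n) : ℂˣ) : ℂ) =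
      l (MulAut.conjNormal b⁻¹ (MulAut.conjNormal a⁻¹ n))
    rw [mul_inv_rev, map_mul, MulAut.mul_apply]

theorem act_apply (N : Subgroup G) [hN : N.Normal] (g : G) (l : N →* ℂˣ) (n : N) :
    act N g l n = l ⟨g⁻¹ * n * g⁻¹⁻¹, hN.conj_mem _ n.2 _⟩ := rfl

theorem core [Group.IsSolvable G] (h : DegP Squarefree G) (hF : IsMulCommutative (fittingSubgroup G))
    {p : ℕ} [hp : Fact p.Prime] (R : Subgroup (G ⧸ fittingSubgroup G)) [R.Normal] (hR : IsPGroup p R) :
    ¬ p ^ 2 ∣ Nat.card R := fun hd => by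
  have cF : ∀ x ∈ fittingSubgroup G, ∀ y ∈ fittingSubgroup G, x * y = y * x := fun x hx y hy =>
    congrArg Subtype.val (hF.is_comm.comm ⟨x, hx⟩ ⟨y, hy⟩)
  obtain ⟨a, m, hm, hG⟩ := Nat.exists_eq_pow_mul_and_not_dvd (Nat.card_pos (α := G)).ne' p hp.out.ne_one
  let N : Subgroup G :=
    { carrier := {x | x ∈ fittingSubgroup G ∧ x ^ m = 1}
      one_mem' := ⟨one_mem _, one_pow _⟩
      mul_mem' := fun {x y} hx hy => ⟨mul_mem hx.1 hy.1, by
        rw [(show Commute x y from cF x hx.1 y hy.1).mul_pow, hx.2, hy.2, one_mul]⟩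
      inv_mem' := fun {x} hx => ⟨inv_mem hx.1, by rw [inv_pow, hx.2, inv_one]⟩ }
  haveI hN : N.Normal := ⟨fun x hx g => ⟨H1.fitting_normal.conj_mem _ hx.1 g, by
    rw [conj_pow, hx.2, mul_one, mul_inv_cancel]⟩⟩
  let π := QuotientGroup.mk' (fittingSubgroup G)
  obtain ⟨B0, hB0⟩ := Sylow.exists_subgroup_card_pow_prime p hd
  have cB := IsPGroup.isMulCommutative_of_card_eq_prime_sq hB0
  let B : Subgroup G := (B0.map R.subtype).comap π
  have tr : ∀ g ∈ fittingSubgroup G, ∀ l, act N g l = l := fun g hg l => by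
    ext n
    rw [act_apply]
    congr 2
    exact Subtype.ext (by simp only [cF _ (inv_mem hg) n n.2.1]; group)
  have cong : ∀ b c : G, π b = π c → ∀ l, act N b l = act N c l := fun b c e l => by
    have : c⁻¹ * b ∈ fittingSubgroup G := QuotientGroup.eq.1 e.symm
    rw [← mul_inv_cancel_left c b, map_mul, Monoid.End.coe_mul, Function.comp_apply, tr _ this]
  obtain ⟨l, hl⟩ := reg ((act N).comp B.subtype) (n := p ^ 2) (fun b c x => by
      obtain ⟨b', hb, eb⟩ := b.2
      obtain ⟨c', hc, ec⟩ := c.2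
      have := cong (b * c) (c * b) (by
        rw [map_mul, map_mul, ← eb, ← ec]
        exact congrArg (fun x : B0 => ((x : R) : G ⧸ fittingSubgroup G))
          (cB.is_comm.comm ⟨b', hb⟩ ⟨c', hc⟩)) x
      rwa [map_mul, map_mul] at this) (fun c x => by
      obtain ⟨c', hc, ec⟩ := c.2
      refine tr _ ((QuotientGroup.eq_one_iff _).1 ?_) x
      have := congrArg (fun x : B0 => ((x : R) : G ⧸ fittingSubgroup G)) (pow_card_eq_one' (x := ⟨c', hc⟩))
      rw [hB0] at this
      show π ((c : G) ^ p ^ 2) = 1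
      rw [map_pow, ← ec]
      exact this) fun l hl => by
      ext n
      have h1 : l n ^ p ^ 2 = 1 := DFunLike.congr_fun hl n
      have h2 : l n ^ m = 1 := by rw [← map_pow, show n ^ m = 1 from Subtype.ext n.2.2, map_one]
      have h3 := pow_gcd_eq_one.2 ⟨h1, h2⟩
      rw [(Nat.Coprime.pow_left 2 ((Nat.Prime.coprime_iff_not_dvd hp.out).2 hm)).gcd_eq_one, pow_one] at h3
      rw [h3]; rfl
  have FR : fittingSubgroup G ≤ R.comap π := fun x hx => by
    rw [mem_comap, (QuotientGroup.eq_one_iff x).2 hx |> (id : π x = 1 → π x = 1)]; exact one_mem _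
  have BR : B ≤ R.comap π := comap_mono (map_subtype_le _)
  have CF : centralizer (N : Set G) ⊓ R.comap π ≤ fittingSubgroup G := by
    refine H1.le_fitting ?_
    let f := (QuotientGroup.mk' N).comp (centralizer (N : Set G) ⊓ R.comap π).subtype
    have : IsPGroup p f.range := by
      rintro ⟨_, x, rfl⟩
      obtain ⟨k, hk⟩ := hR ⟨_, x.2.2⟩
      have a1 : (x : G) ^ p ^ k ∈ fittingSubgroup G := (QuotientGroup.eq_one_iff _).1 (by
        have := congrArg Subtype.val hk
        exact (map_pow π _ _).trans this)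
      refine ⟨k + a, Subtype.ext ((map_pow f _ _).symm.trans ((QuotientGroup.eq_one_iff _).2 ⟨?_, ?_⟩))⟩
      · show (x : G) ^ p ^ (k + a) ∈ _
        rw [pow_add, pow_mul]; exact pow_mem a1 _
      · show ((x : G) ^ p ^ (k + a)) ^ m = 1
        rw [← pow_mul, pow_add, mul_assoc, ← hG, mul_comm, pow_mul, pow_card_eq_one', one_pow]
    haveI := this.isNilpotent
    refine Subgroup.isNilpotent_of_ker_le_center f.rangeRestrict fun x hx => mem_center_iff.2 fun y => ?_
    have : (x : G) ∈ N := (QuotientGroup.eq_one_iff _).1 (congrArg Subtype.val hx)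
    exact Subtype.ext (y.2.1 x this).symm
  have hθ := (isLin_ofHom l).mem_Irr
  have kπ : ∀ K : Subgroup G, π.ker.relIndex K = (fittingSubgroup G).relIndex K := fun K =>
    congrArg (relIndex · K) (QuotientGroup.ker_mk' _)
  have FS : fittingSubgroup G ≤ stab (ofHom N l) := fun g hg => mem_stab_iff.2 fun x => by
    by_cases hx : x ∈ N
    · rw [cF g hg x hx.1, mul_inv_cancel_right]
    · rw [ofHom_of_not_mem _ hx, ofHom_of_not_mem _ fun e => hx (by simpa [mul_assoc] using hN.conj_mem _ e g⁻¹)]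
  have SB : stab (ofHom N l) ⊓ B = fittingSubgroup G ⊓ B := le_antisymm (fun b hb => ⟨by
    have a1 := hl ⟨b, hb.2⟩ (by
      ext n
      have := mem_stab_iff.1 (inv_mem hb.1) n
      rw [ofHom_coe, ofHom_apply _ (hN.conj_mem _ n.2 _)] at this
      exact this)
    refine CF ⟨fun n hn => ?_, BR hb.2⟩
    letI : CommGroup N := { mul_comm := fun x y => Subtype.ext (cF _ x.2.1 _ y.2.1) }
    haveI : NeZero (Monoid.exponent N : ℂ) := ⟨Nat.cast_ne_zero.2 Monoid.exponent_ne_zero_of_finite⟩
    have := (CommGroup.forall_apply_eq_apply_iff N (M := ℂ)).1 fun l' =>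
      DFunLike.congr_fun (a1 l') ⟨n, hn⟩
    have : b⁻¹ * n * b⁻¹⁻¹ = n := congrArg Subtype.val this
    rw [inv_inv] at this
    rw [← mul_inv_cancel_left b (n * b), ← mul_assoc b⁻¹, this], hb.2⟩) (inf_le_inf_right _ FS)
  have i1 : (stab (ofHom N l)).relIndex B = p ^ 2 := by
    rw [← inf_relIndex_right, SB, inf_relIndex_right, ← kπ,
      relIndex_ker, map_comap_eq_self_of_surjective (QuotientGroup.mk'_surjective _),
      card_map_of_injective R.subtype_injective, hB0]
  have NR : N ≤ R.comap π := fun x hx => FR hx.1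
  obtain ⟨χ, hχ⟩ := over_nonempty NR hθ
  obtain ⟨e, -, -, he⟩ := deg_clifford NR le_normalizer_of_normal hθ hχ
  have s1 := degP_sub.1 (h.of_dvd (fun _ _ => sq_of_dvd) (R.comap π)) χ (mem_over.1 hχ).1
  have s2 : Squarefree ((stab (ofHom N l)).relIndex (R.comap π)) :=
    sq_of_dvd ⟨e * charDegree (ofHom N l), by rw [he]; ring⟩ s1
  have s3 : (stab (ofHom N l)).relIndex (R.comap π) ∣ Nat.card R := by
    refine (relIndex_dvd_of_le_left _ FS).trans ?_
    rw [← kπ, relIndex_ker, map_comap_eq_self_of_surjective (QuotientGroup.mk'_surjective _)]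
  obtain ⟨k, hk⟩ := hR.exists_card_eq
  obtain ⟨i, -, hi⟩ := (Nat.dvd_prime_pow hp.out).1 (hk ▸ s3)
  have s4 := relIndex_le_of_le_right (H := stab (ofHom N l)) BR (FiniteIndex.index_ne_zero)
  rw [i1, hi, Nat.pow_le_pow_iff_right hp.out.one_lt] at s4
  rw [hi] at s2
  exact (Nat.prime_iff.1 hp.out).not_isUnit (s2 p (by rw [← pow_two]; exact pow_dvd_pow p s4))

theorem two_of_cyc {H : Type*} [Group H] [Finite H] [Group.IsSolvable H]
    (h : IsCyclic (fittingSubgroup H)) : derivedSeries H 2 = ⊥ := by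
  have h1 : commutator H ≤ fittingSubgroup H := by
    refine le_trans ?_ Cfsg.Agent.S0044.result
    let _ := (IsCyclic.mulAutMulEquiv (fittingSubgroup H)).toMonoidHom.commGroupOfInjective
      (IsCyclic.mulAutMulEquiv _).injective
    intro x hx n hn
    have := congrArg Subtype.val (DFunLike.congr_fun (Abelianization.commutator_subset_ker
      (MulAut.conjNormal (H := fittingSubgroup H)) hx) ⟨n, hn⟩)
    exact (mul_inv_eq_iff_eq_mul.1 this).symm
  have h2 : ⁅commutator H, commutator H⁆ = ⊥ := commutator_eq_bot_iff_le_centralizer.2 fun x hx y hy =>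
    congrArg Subtype.val (h.commGroup.mul_comm ⟨y, h1 hy⟩ ⟨x, h1 hx⟩)
  exact h2

theorem two_le [Group.IsSolvable G] (h : DegP Squarefree G) (hF : IsMulCommutative (fittingSubgroup G)) :
    derivedSeries G 2 ≤ fittingSubgroup G := by
  refine le_of_ds_quot (two_of_cyc ?_)
  haveI : IsZGroup (fittingSubgroup (G ⧸ fittingSubgroup G)) := IsZGroup.of_squarefree (by
    refine Nat.squarefree_iff_prime_squarefree.2 fun p hp hd => ?_
    haveI := Fact.mk hp
    obtain ⟨P⟩ : Nonempty (Sylow p (fittingSubgroup (G ⧸ fittingSubgroup G))) := inferInstance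
    haveI := Sylow.characteristic_of_normal P inferInstance
    refine core h hF ((P : Subgroup _).map (fittingSubgroup _).subtype) (P.isPGroup'.map _) ?_
    rw [card_map_of_injective (subtype_injective _)]
    exact P.pow_dvd_card_of_pow_dvd_card (by rwa [pow_two]))
  infer_instance

theorem main [Group.IsSolvable G] (h : DegP Squarefree G) : derivedSeries G 4 = ⊥ := by
  have h1 : IsMulCommutative (fittingSubgroup (G ⧸ frattini G)) := by
    have a1 := H1.frattiniOf_normal_le (fittingSubgroup (G ⧸ frattini G))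
    rw [H1.frattini_quotient_frattini, le_bot_iff, map_eq_bot_iff_of_injective _ (subtype_injective _)] at a1
    have a2 := H1.isNilpotent_iff_commutator_le_frattini.1
      (inferInstance : Group.IsNilpotent (fittingSubgroup (G ⧸ frattini G)))
    rw [a1, le_bot_iff] at a2
    exact ⟨⟨fun a b => ((commutator_eq_bot_iff_le_centralizer.1 a2) (mem_top b) a (mem_top a))⟩⟩
  have h2 := two_le (h.quot (frattini G)) h1
  have h3 : derivedSeries G 2 ≤ fittingSubgroup G := by
    rw [← H1.comap_fitting_of_ker_le_frattini (QuotientGroup.mk'_surjective (frattini G))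
      (QuotientGroup.ker_mk' _).le, ← map_le_iff_le_comap]
    exact (map_derivedSeries_le_derivedSeries _ 2).trans h2
  exact eq_bot_of_ds (N := fittingSubgroup G) (i := 2) (j := 0) 2 (by rwa [ds_zero])
    (nil_two (h.of_dvd (fun _ _ => sq_of_dvd) _))

end H26.Sqf
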