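import Cfsg.Agent.H26.SzSub2
import Cfsg.Agent.H26.SzSol
import Cfsg.Agent.H16.Not

/-! Maximal subgroups of the Suzuki groups. -/

set_option autoImplicit false

namespace H26
namespace SzModel

open Subgroup H16

variable {G : Type*} [Group G] {F : Type*} [Field F] [Fintype F] {m : ℕ} (M : SzModel G F m)

include M in
theorem coatom_cases {S : Subgroup G} (hS : IsCoatom S) :
    Nat.card S = (2 ^ (2 * m + 1)) ^ 2 * (2 ^ (2 * m + 1) - 1) ∨
    Nat.card S = 2 * (2 ^ (2 * m + 1) - 1) ∨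
    Nat.card S = 4 * (2 ^ (2 * m + 1) + 2 ^ (m + 1) + 1) ∨
    Nat.card S = 4 * (2 ^ (2 * m + 1) - 2 ^ (m + 1) + 1) ∨ ∃ k, 1 ≤ k ∧ k < m ∧
      Nat.card S = (2 ^ (2 * k + 1)) ^ 2 * ((2 ^ (2 * k + 1)) ^ 2 + 1) * (2 ^ (2 * k + 1) - 1) := by
  rcases M.subgroup_cases S with ⟨U, hU, h⟩ | ⟨g, E, hE, rfl⟩
  · obtain rfl : S = N[U] := (hS.le_iff.1 h).resolve_left hU.normalizer_ne_top |>.symm
    rcases hU with ⟨k, rfl⟩ | ⟨k, rfl⟩ | ⟨x, hx, rfl⟩
    · rw [normalizer_Q, card_B, M.hF]; exact Or.inl rfl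
    · rw [card_normalizer_H, M.hF]; exact Or.inr (Or.inl rfl)
    · rw [hx.card_normalizer]
      rcases hx.card_eq.1 with e | e <;> rw [e] <;> simp
  · obtain ⟨k, h1, h2, -⟩ := M.card_subfield hE
    rcases M.subfield_eq_top_or hE with rfl | h
    · exact absurd (sub_top _) hS.1
    rw [h2, M.hF, ← pow_mul, Nat.pow_le_pow_iff_right one_lt_two] at h
    exact Or.inr (Or.inr (Or.inr (Or.inr ⟨k, h1, by omega, by rw [card_sub _ hE, h2]⟩)))

include M in
theorem orderOf_le (x : G) : orderOf x ≤ 2 * Fintype.card F := by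
  have := M.finite
  have h8 := M.eight_le_card
  rcases M.elt_cases x with h | ⟨k, h⟩ | ⟨k, h⟩
  · have h1 := Nat.le_of_dvd Nat.card_pos (orderOf_dvd_natCard (centralizer {x}) (cent1_self x))
    have h2 : 2 ^ (m + 1) < 2 ^ (2 * m + 1) := Nat.pow_lt_pow_right one_lt_two (by
      have := M.hm; omega)
    have h3 := Nat.two_pow_pos (m + 1)
    rw [M.hF]
    rcases h.card_eq.1 with e | e <;> rw [e] at h1 <;>
      generalize 2 ^ (m + 1) = a at * <;> generalize 2 ^ (2 * m + 1) = b at * <;> omega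
  · have := Nat.le_of_dvd (by norm_num) (orderOf_dvd_of_pow_eq_one (pow_four_of_mem_Q _ h))
    omega
  · have := Nat.le_of_dvd Nat.card_pos (orderOf_dvd_natCard _ h)
    rw [card_H] at this
    omega

theorem coatom_norm {U : Subgroup G} (hU : M.IsPart U) (hc : IsCyclic U)
    (h1 : Fintype.card F ≤ Nat.card U + 1) (h : ∀ V, M.IsPart V → N[U] ≤ N[V] → V = U) :
    IsCoatom N[U] := by
  refine ⟨hU.normalizer_ne_top, fun S hS => ?_⟩
  rcases M.subgroup_cases S with ⟨V, hV, k⟩ | ⟨g, E, hE, rfl⟩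
  · rw [h V hV (hS.le.trans k)] at k
    exact absurd k hS.not_ge
  rcases M.subfield_eq_top_or hE with rfl | k
  · exact sub_top _
  obtain ⟨x, rfl⟩ := exists_gen hc
  obtain ⟨j, _, -, -, ⟨M₀⟩⟩ := (M.conj g).exists_model_sub hE
  have k1 := M₀.orderOf_le ⟨x, hS.le (le_norm _ (mem_zpowers x))⟩
  have k2 := M₀.eight_le_card
  rw [orderOf_mk, ← Nat.card_eq_fintype_card] at k1
  rw [← Nat.card_eq_fintype_card] at k2
  rw [Nat.card_zpowers] at h1
  exfalso
  generalize Nat.card E = s at k k1 k2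
  have : 8 * 8 * s ≤ s ^ 3 := by rw [pow_succ, sq]; gcongr
  omega

theorem coatom_H : IsCoatom N[M.H] := by
  have h8 := M.eight_le_card
  refine M.coatom_norm (Or.inr (Or.inl ⟨1, by rw [conj_one]⟩)) M.isCyclic_H
    (by rw [card_H]; omega) fun V hV h => ?_
  obtain ⟨x, hx, h1⟩ := M.exists_mem_H_ne_one
  have hw : M.w ∈ N[V] := h (M.mem_normalizer_H.2 (Or.inr (M.w_mul_w ▸ one_mem _)))
  rcases M.part_cases_of_H hV hx h1 (h (le_norm _ hx)) with rfl | rfl | rfl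
  · exact absurd (M.normalizer_Q ▸ hw) M.w_not_mem_B
  · rw [normalizer_Q, mem_conj_B, inv_mul_cancel, one_mul] at hw
    exact absurd hw M.w_not_mem_B
  · rfl

theorem coatom_T {x : G} (hx : M.Fpf x) (h1 : Fintype.card F ≤ Nat.card C1[x] + 1) :
    IsCoatom N[C1[x]] := by
  have := M.finite
  have hp : M.IsPart C1[x] := Or.inr (Or.inr ⟨x, hx, rfl⟩)
  refine M.coatom_norm hp hx.isCyclic h1 fun V hV h => ?_
  have k := h (le_norm _ (cent1_self x))
  refine hV.unique hp hx.ne_one ?_ (cent1_self x)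
  rcases hV with ⟨g, rfl⟩ | ⟨g, rfl⟩ | ⟨y, hy, rfl⟩
  · exact absurd hx (M.not_fpf_of_mem_conj_B ((M.conj g).normalizer_Q ▸ k))
  · exact mem_of_odd_of_card (j := 1) (by rw [card_normalizer_H, card_H, pow_one]) hx.odd k
  · exact mem_of_odd_of_card (j := 2) (by rw [hy.card_normalizer]; rfl) hx.odd k

include M in
theorem exists_coatom : (∃ S : Subgroup G, IsCoatom S ∧ Nat.card S = 2 * (2 ^ (2 * m + 1) - 1)) ∧
    ∃ S : Subgroup G, IsCoatom S ∧ Nat.card S = 4 * (2 ^ (2 * m + 1) + 2 ^ (m + 1) + 1) := by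
  refine ⟨⟨_, M.coatom_H, by rw [card_normalizer_H, M.hF]⟩, ?_⟩
  obtain ⟨x, hx, h1, h2⟩ := M.exists_torus (Or.inl rfl)
  exact ⟨_, M.coatom_T hx (by rw [h1, M.hF, add_assoc, add_assoc]; exact Nat.le_add_right _ _), h2⟩

end SzModel
end H26
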