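import Cfsg.Agent.H2.KD0
import Cfsg.Agent.S0024
import Cfsg.Agent.S0025
import Cfsg.Agent.S0026
import Cfsg.Agent.S3734
import Cfsg.Agent.H5.CoresOf

/-! Maximal invariant `p`-subgroups under an elementary abelian `2`-group. -/

set_option autoImplicit false
set_option linter.unusedSectionVars false

namespace H26.Top

open Subgroup H10 H2.KD

universe u
variable {G : Type u} [Group G] [Finite G] {E V : Subgroup G} {p : ℕ}

theorem four (cV : Nat.card V = 4) (e2 : ∀ a ∈ V, a * a = 1) {a b : G} (ha : a ∈ V) (hb : b ∈ V)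
    (a1 : a ≠ 1) (b1 : b ≠ 1) (ab : a ≠ b) {v : G} (hv : v ∈ V) :
    v = 1 ∨ v = a ∨ v = b ∨ v = a * b := by
  classical
  have k1 : a * b ≠ 1 := fun h => ab (mul_left_cancel ((e2 a ha).trans h.symm))
  have k2 : a * b ≠ a := fun h => b1 (by simpa using h)
  have k3 : a * b ≠ b := fun h => a1 (by simpa using h)
  have : ({1, a, b, a * b} : Set G) = V := by
    refine Set.eq_of_subset_of_ncard_le ?_ ?_ (Set.toFinite _)
    · rintro x (rfl | rfl | rfl | rfl)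
      exacts [V.one_mem, ha, hb, V.mul_mem ha hb]
    · rw [← Nat.card_coe_set_eq, SetLike.coe_sort_coe, cV, Set.ncard_insert_of_notMem (by
        simp [a1.symm, b1.symm, k1.symm]), Set.ncard_insert_of_notMem (by simp [ab, k2.symm]),
        Set.ncard_pair k3.symm]
  have h : v ∈ ({1, a, b, a * b} : Set G) := this ▸ hv
  simpa using h

theorem mi_cj {N X : Subgroup G} (m : MI p E N X) {g : G} (hg : g ∈ NN(E)) :
    MI p E (cj g N) (cj g X) := by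
  have k : ∀ {g : G} {Y : Subgroup G}, g ∈ NN(E) → E ≤ NN(Y) → E ≤ NN(cj g Y) := fun hg h => by
    rw [← cj_normalizer, ← cj_eq_of_mem_NN hg]; exact cj_mono _ h
  refine ⟨cj_mono _ m.1, isPGroup_cj _ m.2.1, k hg m.2.2.1, fun Y h1 h2 h3 h4 => ?_⟩
  rw [← m.2.2.2 (cj g⁻¹ Y) (le_cj_iff.1 h1) (isPGroup_cj _ h2) (k (inv_mem hg) h3) (cj_le_iff.1 h4),
    cj_cj_inv]

theorem mi_ext {N Y : Subgroup G} (h1 : Y ≤ N) (h2 : IsPGroup p Y) (h3 : E ≤ NN(Y)) :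
    ∃ X, MI p E N X ∧ Y ≤ X := by
  obtain ⟨X, hX, hm⟩ := Finite.exists_le_maximal
    (p := fun X : Subgroup G => X ≤ N ∧ IsPGroup p X ∧ E ≤ NN(X)) ⟨h1, h2, h3⟩
  exact ⟨X, ⟨hm.1.1, hm.1.2.1, hm.1.2.2, fun Z a b c d => le_antisymm (hm.2 ⟨a, b, c⟩ d) d⟩, hX⟩

theorem cop (h : HD E V) {J : Subgroup G} (hJ : Odd (Nat.card J)) :
    (Nat.card E).Coprime (Nat.card J) := by
  rw [h.cE, show 16 = 2 ^ 4 from rfl]
  exact Nat.Coprime.pow_left _ (Nat.coprime_two_left.2 hJ)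

theorem sol (h : HD E V) : Group.IsSolvable E :=
  have : IsMulCommutative E := isMulCommutative_iff_le_CC.2 h.ec
  Group.isSolvable_of_comm fun a b => mul_comm' a b

theorem mi_syl (h : HD E V) [Fact p.Prime] {J X : Subgroup G} (hJ : Odd (Nat.card J))
    (hE : E ≤ NN(J)) (m : MI p E J X) : IsSylowIn p X J := by
  obtain ⟨P, h1, h2⟩ := Cfsg.Agent.S0025.result E J hE (cop h hJ) (Or.inl (sol h)) p X m.1 m.2.1
    m.2.2.1
  have k := isSylowIn_map_subtype P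
  rwa [m.2.2.2 _ k.le k.isPGroup h2 h1] at k

theorem mi_odd (h : HD E V) [Fact p.Prime] {J X1 X2 : Subgroup G} (hJ : Odd (Nat.card J))
    (hE : E ≤ NN(J)) (m1 : MI p E J X1) (m2 : MI p E J X2) : ∃ c ∈ J ⊓ CC(E), cj c X1 = X2 := by
  obtain ⟨P, rfl⟩ := (mi_syl h hJ hE m1).exists_sylow
  obtain ⟨Q, rfl⟩ := (mi_syl h hJ hE m2).exists_sylow
  obtain ⟨c, h1, h2⟩ := Cfsg.Agent.S0024.result E J hE (cop h hJ) (Or.inl (sol h)) p P Q m1.2.2.1
    m2.2.2.1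
  refine ⟨c, ⟨c.2, h1⟩, ?_⟩
  rw [← h2]
  exact (H1.map_conj_smul J.subtype c P).symm

/-- fullness -/
theorem full (h : HD E V) [Fact p.Prime] {J N P X : Subgroup G} (hJ : Odd (Nat.card J))
    (hE : E ≤ NN(J)) (hN : CC(E) ≤ N)
    (hall : ∀ Y : Subgroup G, Y ≤ N → IsPGroup p Y → E ≤ NN(Y) → Y ≤ J) (m : MI p E J P)
    (hX : IsPGroup p X) (hEX : E ≤ NN(X)) (hPX : P ≤ X) : MI p E N (X ⊓ N) := by
  have nN : E ≤ NN(N) := (h.ec.trans hN).trans (le_NN_self N)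
  obtain ⟨Q, q, -⟩ := mi_ext (p := p) (E := E) (N := N) bot_le IsPGroup.of_bot
    (le_top.trans NN_bot.ge)
  obtain ⟨P', m', hQ⟩ := mi_ext (hall Q q.1 q.2.1 q.2.2.1) q.2.1 q.2.2.1
  obtain ⟨c, hc, e⟩ := mi_odd h hJ hE m' m
  have q' := mi_cj q (CC_le_NN E hc.2)
  rw [cj_eq_of_mem (hN hc.2)] at q'
  have := q'.2.2.2 (X ⊓ N) inf_le_right (hX.to_le inf_le_left) (le_NN_inf hEX nN)
    (le_inf ((cj_mono c hQ).trans (e.le.trans hPX)) q'.1)
  rwa [this]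

theorem odd_of_p [hp : Fact p.Prime] (h2 : p ≠ 2) {Y : Subgroup G} (h : IsPGroup p Y) :
    Odd (Nat.card Y) := by
  obtain ⟨k, hk⟩ := IsPGroup.iff_card.1 h
  exact hk ▸ (hp.out.odd_of_ne_two h2).pow

theorem odd_of_le {Y Z : Subgroup G} (h : Y ≤ Z) (hZ : Odd (Nat.card Z)) : Odd (Nat.card Y) :=
  hZ.of_dvd_nat (card_dvd_of_le h)

theorem odd_sup {Y Z : Subgroup G} (h : Y ≤ NN(Z)) (hY : Odd (Nat.card Y)) (hZ : Odd (Nat.card Z)) :
    Odd (Nat.card (Y ⊔ Z : Subgroup G)) :=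
  (hY.mul hZ).of_dvd_nat (Dvd.intro _ (card_sup_mul_card_inf h))

/-- an odd invariant subgroup not inside `M` has a maximal invariant `p`-subgroup not inside `M` -/
theorem ex_mi (h : HD E V) {D M : Subgroup G} (hD : Odd (Nat.card D)) (hE : E ≤ NN(D))
    (hM : ¬ D ≤ M) : ∃ p : ℕ, p.Prime ∧ p ≠ 2 ∧ ∃ P, MI p E D P ∧ ¬ P ≤ M := by
  have r1 : M.relIndex D ≠ 1 := fun e => hM (relIndex_eq_one.1 e)
  have hp := Nat.minFac_prime r1
  have := Fact.mk hp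
  have hd := Nat.minFac_dvd (M.relIndex D)
  obtain ⟨P, m, -⟩ := mi_ext (p := (M.relIndex D).minFac) (E := E) (N := D) bot_le IsPGroup.of_bot
    (le_top.trans NN_bot.ge)
  refine ⟨_, hp, fun e => ?_, P, m, fun hP => (mi_syl h hD hE m).not_dvd_relIndex
    (hd.trans (relIndex_dvd_of_le_left _ hP))⟩
  rw [e] at hd
  exact (Nat.not_even_iff_odd.2 hD) (even_iff_two_dvd.2 (hd.trans (relIndex_dvd_card _ _)))

/-- generation by the centralizers of hyperplanes -/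
theorem gen (h : HD E V) {Y K : Subgroup G} (hY : Odd (Nat.card Y)) (hE : E ≤ NN(Y))
    (hK : ∀ B : Subgroup G, B ≤ E → (∀ y ∈ E, ∀ e ∈ E, y ∉ B → e ∉ B → e * y ∈ B) →
      Y ⊓ CC(B) ≤ K) : Y ≤ K := by
  rw [← (Cfsg.Agent.S3734.result E Y (isMulCommutative_iff_le_CC.2 h.ec) hE (cop h hY)).1]
  refine iSup₂_le fun B ⟨h1, a, ha, h2⟩ => hK B h1 ?_
  have k : ∀ e ∈ E, e ∉ B → e * a ∈ B := fun e he hn => by
    rw [← h2] at he
    obtain ⟨b, hb, c, hc, rfl⟩ := (mem_sup_of_NN' (((zpowers_le_of_mem ha).trans h.ec).trans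
      ((CC_anti h1).trans (CC_le_NN B)))).1 he
    obtain ⟨i, rfl⟩ := mem_zpowers_iff.1 hc
    have a2 : a ^ (2 : ℤ) = 1 := by rw [zpow_two, h.e2 a ha]
    rcases Int.even_or_odd' i with ⟨j, rfl | rfl⟩
    · rw [zpow_mul, a2, one_zpow, mul_one] at hn; exact absurd hb hn
    · rwa [zpow_add, zpow_mul, a2, one_zpow, one_mul, zpow_one, mul_assoc, h.e2 a ha, mul_one]
  intro y hy e he h3 h4
  have := B.mul_mem (k e he h4) (k y hy h3)
  rwa [mul_assoc, ← mul_assoc a, h.ec hy a ha, mul_assoc y, h.e2 a ha, mul_one] at this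

end H26.Top
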