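import Cfsg.Agent.H26.Top1
import Cfsg.Agent.H6.ZS

/-! The automizer of `E` in `C(u)`. -/

set_option autoImplicit false
set_option linter.unusedSectionVars false

namespace H26.Top

open Subgroup H10 H2.KD
open H5 (oppOf)

universe u
variable {G : Type u} [Group G] [Finite G] {E V : Subgroup G} {u : G}

theorem zstar_in {T H : Subgroup G} (hT : IsSylowIn 2 T H) {x : G} (hx : x ∈ T)
    (h : ∀ g ∈ H, g * x * g⁻¹ ∈ T → g * x * g⁻¹ = x) {g : G} (hg : g ∈ H) :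
    g * x * g⁻¹ * x⁻¹ ∈ oppOf 2 H :=
  ⟨_, H6.zstar2 (S := hT.toSylow) (x := ⟨x, hT.le hx⟩)
    ⟨hx, fun y hy => Subtype.ext (h y y.2 hy)⟩ ⟨g, hg⟩, rfl⟩

/-- fusion in an abelian Sylow subgroup -/
theorem fus {T H : Subgroup G} (hT : IsSylowIn 2 T H) (hc : T ≤ CC(T)) {x g : G} (hx : x ∈ T)
    (hg : g ∈ H) (h : g * x * g⁻¹ ∈ T) : ∃ n ∈ H ⊓ NN(T), n * x * n⁻¹ = g * x * g⁻¹ := by
  have k : ∀ y ∈ T, T ≤ centralizer {y} := fun y hy t ht =>
    mem_centralizer_singleton_iff.2 (hc ht y hy).symm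
  have s1 : IsSylowIn 2 T (H ⊓ centralizer {g * x * g⁻¹}) :=
    hT.of_le (le_inf hT.le (k _ h)) inf_le_left
  have s2 : IsSylowIn 2 (cj g T) (H ⊓ centralizer {g * x * g⁻¹}) :=
    (hT.cj_of_mem hg).of_le (le_inf (cj_le_of_mem hg hT.le)
      (cj_centralizer_singleton g x ▸ cj_mono g (k x hx))) inf_le_left
  obtain ⟨c, hc, e⟩ := s2.exists_cj s1
  refine ⟨c * g, ⟨H.mul_mem hc.1 hg, mem_NN.2 (by rw [cj_mul, e])⟩, ?_⟩
  have := mem_centralizer_singleton_iff.1 hc.2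
  calc c * g * x * (c * g)⁻¹ = c * (g * x * g⁻¹) * c⁻¹ := by group
    _ = _ := by rw [this]; group

theorem zs {T H : Subgroup G} (hT : IsSylowIn 2 T H) (hc : T ≤ CC(T)) {x : G} (hx : x ∈ T)
    (h : ∀ n ∈ H ⊓ NN(T), n * x * n⁻¹ = x) {g : G} (hg : g ∈ H) : g * x * g⁻¹ * x⁻¹ ∈ oppOf 2 H :=
  zstar_in hT hx (fun g hg h1 => by
    obtain ⟨n, hn, e⟩ := fus hT hc hx hg h1
    rw [← e, h n hn]) hg

theorem mem_CC_of_pow {T H : Subgroup G} (hT : IsSylowIn 2 T H) (hc : T ≤ CC(T)) {n : G}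
    (hn : n ∈ H ⊓ NN(T)) (h4 : n ^ 4 ∈ CC(T)) : n ∈ CC(T) := by
  obtain ⟨k, m, hm, e⟩ := Nat.exists_eq_two_pow_mul_odd (orderOf_pos n).ne'
  have h1 : n ^ m ∈ T := (zpowers_le.1 (hT.le_of_le_NN (isPGroup_zpowers (k := k) (by
    rw [← pow_mul, mul_comm, ← e, pow_orderOf_eq_one])) (zpowers_le.2 (pow_mem hn.1 m))
      (zpowers_le.2 (pow_mem hn.2 m))))
  have cop : Nat.Coprime m 4 := Nat.Coprime.pow_right 2 (Nat.coprime_two_right.2 hm)
  obtain ⟨a, b, hab⟩ := Nat.isCoprime_iff_coprime.2 cop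
  have : n = (n ^ m) ^ a * (n ^ 4) ^ b := by
    rw [← zpow_natCast, ← zpow_natCast, ← zpow_mul, ← zpow_mul, ← zpow_add, mul_comm (m : ℤ),
      mul_comm ((4 : ℕ) : ℤ), hab, zpow_one]
  rw [this]
  exact mul_mem (zpow_mem (hc h1) a) (zpow_mem h4 b)

theorem comm (h : HD E V) {a b : G} (ha : a ∈ E) (hb : b ∈ E) : a * b = b * a := h.ec hb a ha

theorem nV (h : HD E V) {n : G} (hn : n ∈ NN(E)) {v : G} (hv : v ∈ V) : n * v * n⁻¹ ∈ V :=
  h.h3 n v hv (conj_mem_of_mem_NN hn (h.le hv))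

theorem nV' (h : HD E V) : NN(E) ≤ NN(V) := le_NN_iff.2 fun _ hn _ hv => nV h hn hv

theorem inv_eq (h : HD E V) {a : G} (ha : a ∈ E) : a⁻¹ = a := inv_eq_of_mul_eq_one_left (h.e2 a ha)

/-- the cosets of `V` in `E` -/
theorem cos (h : HD E V) {a b : G} (ha : a ∈ E) (hb : b ∈ E) (a1 : a ∉ V) (b1 : b ∉ V)
    (ab : b * a ∉ V) {e : G} (he : e ∈ E) : e ∈ V ∨ e * a ∈ V ∨ e * b ∈ V ∨ e * (a * b) ∈ V := by
  have : (V.subgroupOf E).Normal := normal_subgroupOf (h.ec.trans ((CC_anti h.le).trans (CC_le_NN V)))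
  have c4 : Nat.card (⊤ : Subgroup (E ⧸ V.subgroupOf E)) = 4 := by
    have := card_mul_relIndex h.le
    rw [h.cV, h.cE] at this
    rw [card_top]
    change V.relIndex E = 4
    omega
  let f := QuotientGroup.mk' (V.subgroupOf E)
  have k : ∀ x : E, f x = 1 ↔ (x : G) ∈ V := fun x => QuotientGroup.eq_one_iff x
  have sq : ∀ x : E, f x * f x = 1 := fun x => by
    rw [← map_mul, show x * x = 1 from Subtype.ext (h.e2 x x.2), map_one]
  have k2 : ∀ x y : E, f x = f y ↔ (x * y : G) ∈ V := fun x y => by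
    rw [← Subgroup.coe_mul, ← k, map_mul]
    exact ⟨fun e => e ▸ sq x, fun e => mul_right_cancel (e.trans (sq y).symm)⟩
  have := four c4 (fun q _ => by obtain ⟨x, rfl⟩ := QuotientGroup.mk'_surjective _ q; exact sq x)
    (mem_top (f ⟨a, ha⟩)) (mem_top (f ⟨b, hb⟩)) (mt (k _).1 a1) (mt (k _).1 b1)
    (mt (k2 _ _).1 (comm h ha hb ▸ ab)) (mem_top (f ⟨e, he⟩))
  rwa [k, k2, k2, ← map_mul, k2] at this

theorem ex_w (h : HD E V) (hu : u ∈ E) : ∃ w ∈ E, w ∉ V ∧ w * u ∉ V := by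
  by_contra! hn
  have : (E : Set G) ⊆ V ∪ (fun v => v * u) '' V := fun e he => by
    by_cases h1 : e ∈ V
    · exact Or.inl h1
    · exact Or.inr ⟨_, hn e he h1, by simp only [mul_assoc, h.e2 u hu, mul_one]⟩
  have k := (Set.ncard_le_ncard this (Set.toFinite _)).trans (Set.ncard_union_le _ _)
  have k2 := Set.ncard_image_le (f := fun v => v * u) (s := (V : Set G)) (Set.toFinite _)
  have e1 : (E : Set G).ncard = 16 := by rw [← Nat.card_coe_set_eq]; exact h.cE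
  have e2 : (V : Set G).ncard = 4 := by rw [← Nat.card_coe_set_eq]; exact h.cV
  omega

theorem ex_v (h : HD E V) : ∃ a ∈ V, ∃ b ∈ V, a ≠ 1 ∧ b ≠ 1 ∧ a ≠ b := by
  by_contra! hn
  have e2 : (V : Set G).ncard = 4 := by rw [← Nat.card_coe_set_eq]; exact h.cV
  obtain ⟨a, ha, b, hb, c, hc, ab, ac, bc⟩ := (Set.two_lt_ncard (Set.toFinite _)).1
    (show 2 < (V : Set G).ncard by omega)
  by_cases a1 : a = 1
  · exact bc (hn b hb c hc (a1 ▸ ab.symm) (a1 ▸ ac.symm))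
  by_cases b1 : b = 1
  · exact ac (hn a ha c hc a1 (b1 ▸ bc.symm))
  · exact ab (hn a ha b hb a1 b1)

theorem conj_sq (n e : G) : n ^ 2 * e * (n ^ 2)⁻¹ = n * (n * e * n⁻¹) * n⁻¹ := by
  rw [sq]; group

/-- an element of the normalizer in `C(u)` fixing an involution of `V` centralizes `E` -/
theorem fix (h : HD E V) (hu : u ∈ E) (huV : u ∉ V) {n v : G} (hn : n ∈ centralizer {u} ⊓ NN(E))
    (hv : v ∈ V) (v1 : v ≠ 1) (hf : n * v * n⁻¹ = v) : n ∈ CC(E) := by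
  have fu : n * u * n⁻¹ = u := by rw [mem_centralizer_singleton_iff.1 hn.1]; group
  have cm : ∀ a b : G, n * (a * b) * n⁻¹ = (n * a * n⁻¹) * (n * b * n⁻¹) := fun a b => by group
  have inj : ∀ a b : G, n * a * n⁻¹ = n * b * n⁻¹ → a = b := fun a b e => by simpa using e
  have nv : ∀ a : G, n * a * n⁻¹ ∈ V → a ∈ V := fun a e => by
    simpa [mul_assoc] using conj_mem_of_mem_NN' (nV' h hn.2) e
  -- `n ^ 2` centralizes `V`
  have k1 : ∀ a ∈ V, n ^ 2 * a * (n ^ 2)⁻¹ = a := fun a ha => by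
    rw [conj_sq]
    by_cases a1 : a = 1
    · simp [a1]
    by_cases av : v = a
    · rw [← av, hf, hf]
    rcases four h.cV (fun x hx => h.e2 x (h.le hx)) hv ha v1 a1 av (nV h hn.2 ha) with e | e | e | e
    · exact absurd (inj a 1 (by simpa using e)) a1
    · exact absurd (inj _ _ (hf.trans e.symm)) av
    · rw [e, e]
    · rw [e, cm, hf, e, ← mul_assoc, h.e2 v (h.le hv), one_mul]
  have k2 : ∀ e ∈ E, n * e * n⁻¹ * e ∈ V ∨ n * e * n⁻¹ * (u * e) ∈ V := fun e he => by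
    by_cases a1 : e ∈ V
    · exact Or.inl (V.mul_mem (nV h hn.2 a1) a1)
    by_cases a2 : e * u ∈ V
    · left
      have := V.mul_mem (nV h hn.2 a2) a2
      rwa [cm, fu, mul_assoc, ← mul_assoc u, comm h hu he, mul_assoc e, h.e2 u hu, mul_one] at this
    rcases cos h hu he huV a1 a2 (conj_mem_of_mem_NN hn.2 he) with c | c | c
    · exact absurd (nv _ c) a1
    · exact absurd (nv _ (by rwa [cm, fu])) a2
    · exact c
  have k3 : ∀ e ∈ E, n ^ 2 * e * (n ^ 2)⁻¹ * e ∈ V := fun e he => by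
    have he' := conj_mem_of_mem_NN hn.2 he
    rw [conj_sq]
    rcases k2 e he with c | c
    · have := V.mul_mem (nV h hn.2 c) c
      rwa [cm, mul_assoc, ← mul_assoc (n * e * n⁻¹), h.e2 _ he', one_mul] at this
    · have := V.mul_mem (nV h hn.2 c) c
      have e1 : n * (n * e * n⁻¹ * (u * e)) * n⁻¹ * (n * e * n⁻¹ * (u * e)) = n * (n * e * n⁻¹) * n⁻¹ *
          (n * u * n⁻¹ * (n * e * n⁻¹ * (n * e * n⁻¹)) * u) * e := by group
      rwa [e1, fu, h.e2 _ he', mul_one, h.e2 u hu, mul_one] at this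
  refine mem_CC_of_pow (h.h2 u hu huV) h.ec hn fun e he => ?_
  have e1 : n ^ 2 * e * (n ^ 2)⁻¹ = (n ^ 2 * e * (n ^ 2)⁻¹ * e) * e := by
    rw [mul_assoc _ e e, h.e2 e he, mul_one]
  have e2 : n ^ 4 * e * (n ^ 4)⁻¹ = e := by
    calc n ^ 4 * e * (n ^ 4)⁻¹ = n ^ 2 * (n ^ 2 * e * (n ^ 2)⁻¹) * (n ^ 2)⁻¹ := by group
      _ = (n ^ 2 * (n ^ 2 * e * (n ^ 2)⁻¹ * e) * (n ^ 2)⁻¹) * (n ^ 2 * e * (n ^ 2)⁻¹) := by
        conv_lhs => rw [e1]
        group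
      _ = e := by
        rw [k1 _ (k3 e he)]
        have hh := conj_mem_of_mem_NN (pow_mem hn.2 2) he
        rw [mul_assoc, comm h he hh, ← mul_assoc, h.e2 _ hh, one_mul]
  exact (mul_inv_eq_iff_eq_mul.1 e2).symm

/-- the second case: an automorphism of order three -/
theorem three (h : HD E V) (hu : u ∈ E) (huV : u ∉ V) {x : G} (hx : x ∈ centralizer {u} ⊓ NN(E))
    (hxc : x ∉ CC(E)) :
    (∀ v ∈ V, v ≠ 1 → ∀ w ∈ V, w ≠ 1 → ∃ i : ℕ, x ^ i * v * (x ^ i)⁻¹ = w) ∧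
      ∃ w ∈ E, w ∉ V ∧ w * u ∉ V ∧ ∀ n ∈ centralizer {u} ⊓ NN(E), n * w * n⁻¹ = w := by
  have nf : ∀ v ∈ V, v ≠ 1 → x * v * x⁻¹ ≠ v := fun v hv v1 e => hxc (fix h hu huV hx hv v1 e)
  have n1 : ∀ v : G, v ≠ 1 → x * v * x⁻¹ ≠ 1 := fun v v1 e => v1 (by simpa using e)
  have e2 : ∀ x ∈ V, x * x = 1 := fun x hx => h.e2 x (h.le hx)
  have k1 : ∀ v ∈ V, v ≠ 1 → x ^ 2 * v * (x ^ 2)⁻¹ = v * (x * v * x⁻¹) := fun v hv v1 => by
    have hv' := nV h hx.2 hv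
    rw [conj_sq]
    rcases four h.cV e2 hv hv' v1 (n1 v v1) (nf v hv v1).symm (nV h hx.2 hv') with e | e | e | e
    · exact absurd e (n1 _ (n1 v v1))
    · have a1 : v * (x * v * x⁻¹) ≠ 1 := fun a => nf v hv v1
        (mul_left_cancel (a.trans (e2 v hv).symm))
      refine absurd ?_ (nf _ (V.mul_mem hv hv') a1)
      rw [comm h (h.le hv) (h.le hv')]
      calc x * (x * v * x⁻¹ * v) * x⁻¹ = (x * (x * v * x⁻¹) * x⁻¹) * (x * v * x⁻¹) := by group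
        _ = _ := by rw [e, comm h (h.le hv) (h.le hv')]
    · exact absurd e (nf _ hv' (n1 v v1))
    · exact e
  have t : ∀ v ∈ V, v ≠ 1 → ∀ w ∈ V, w ≠ 1 → ∃ i : ℕ, x ^ i * v * (x ^ i)⁻¹ = w := by
    intro v hv v1 w hw w1
    rcases four h.cV e2 hv (nV h hx.2 hv) v1 (n1 v v1) (nf v hv v1).symm hw with e | e | e | e
    · exact absurd e w1
    · exact ⟨0, by simp [e]⟩
    · exact ⟨1, by simp [e]⟩
    · exact ⟨2, by rw [k1 v hv v1, e]⟩
  refine ⟨t, ?_⟩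
  obtain ⟨a, ha, -, -, a1, -, -⟩ := ex_v h
  have x3 : x ^ 3 ∈ CC(E) := by
    refine fix h hu huV (pow_mem hx 3) ha a1 ?_
    calc x ^ 3 * a * (x ^ 3)⁻¹ = x * (x ^ 2 * a * (x ^ 2)⁻¹) * x⁻¹ := by group
      _ = (x * a * x⁻¹) * (x ^ 2 * a * (x ^ 2)⁻¹) := by
        conv_lhs => rw [k1 a ha a1]
        rw [conj_sq]; group
      _ = a := by
        rw [k1 a ha a1, comm h (h.le ha) (h.le (nV h hx.2 ha)), ← mul_assoc,
          e2 _ (nV h hx.2 ha), one_mul]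
  obtain ⟨w, hw, w1, w2⟩ := ex_w h hu
  let W := V ⊔ zpowers u
  have nW : x ∈ NN(W) := mem_NN_sup (nV' h hx.2) (CC_le_NN _ (CC_zpowers u ▸ hx.1))
  have uW : u ∈ W := mem_sup_right (mem_zpowers u)
  have wW : w ∉ W := fun hh => by
    obtain ⟨b, hb, c, hc, e⟩ := (mem_sup_of_NN' (((zpowers_le_of_mem hu).trans h.ec).trans
      ((CC_anti h.le).trans (CC_le_NN V)))).1 hh
    obtain ⟨i, rfl⟩ := mem_zpowers_iff.1 hc
    have a2 : u ^ (2 : ℤ) = 1 := by rw [zpow_two, h.e2 u hu]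
    rcases Int.even_or_odd' i with ⟨j, rfl | rfl⟩
    · rw [zpow_mul, a2, one_zpow, mul_one] at e; exact w1 (e ▸ hb)
    · rw [zpow_add, zpow_mul, a2, one_zpow, one_mul, zpow_one] at e
      exact w2 (by rwa [← e, mul_assoc, h.e2 u hu, mul_one])
  have two : ∀ e ∈ E, e ∉ W → e * w ∈ W := fun e he hn => by
    rcases cos h hu hw huV w1 w2 he with c | c | c | c
    · exact absurd (mem_sup_left c) hn
    · exact absurd ((W.mul_mem_cancel_right uW).1 (mem_sup_left c)) hn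
    · exact mem_sup_left c
    · rw [comm h hu hw, ← mul_assoc] at c
      exact (W.mul_mem_cancel_right uW).1 (mem_sup_left c)
  have cW : ∀ e : G, e ∉ W → x * e * x⁻¹ ∉ W := fun e hn hh =>
    hn (by simpa [mul_assoc] using conj_mem_of_mem_NN' nW hh)
  have hw1 := conj_mem_of_mem_NN hx.2 hw
  have hw2 := conj_mem_of_mem_NN hx.2 hw1
  set y := x * w * x⁻¹ * w * (x * (x * w * x⁻¹) * x⁻¹) with hy
  have yW : y ∉ W := fun hh =>
    cW _ (cW _ wW) ((W.mul_mem_cancel_left (two _ hw1 (cW _ wW))).1 hh)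
  have yx : x * y * x⁻¹ = y := by
    have w3 : x ^ 3 * w * (x ^ 3)⁻¹ = w := by rw [← x3 w hw]; group
    calc x * y * x⁻¹ = (x * (x * w * x⁻¹) * x⁻¹) * (x * w * x⁻¹) * (x ^ 3 * w * (x ^ 3)⁻¹) := by
          rw [hy]
          simp only [pow_succ, pow_zero, one_mul, mul_inv_rev, mul_assoc, inv_mul_cancel_left]
      _ = y := by rw [w3, mul_assoc _ (x * w * x⁻¹) w, comm h hw2 (E.mul_mem hw1 hw)]
  have yE : y ∈ E := E.mul_mem (E.mul_mem hw1 hw) hw2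
  refine ⟨y, yE, fun hh => yW (mem_sup_left hh),
    fun hh => yW ((W.mul_mem_cancel_right uW).1 (mem_sup_left hh)), fun n hn => ?_⟩
  obtain ⟨i, hi⟩ := t a ha a1 _ (nV h hn.2 ha) (fun e => a1 (by simpa using e))
  have c := fix h hu huV (mul_mem (inv_mem (pow_mem hx i)) hn) ha a1 (by
    calc (x ^ i)⁻¹ * n * a * ((x ^ i)⁻¹ * n)⁻¹ = (x ^ i)⁻¹ * (n * a * n⁻¹) * x ^ i := by group
      _ = a := by rw [← hi]; group)
  have cx : Commute x y := mul_inv_eq_iff_eq_mul.1 yx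
  calc n * y * n⁻¹ = x ^ i * (((x ^ i)⁻¹ * n) * y) * n⁻¹ := by group
    _ = x ^ i * y * (x ^ i)⁻¹ := by rw [← c y yE]; group
    _ = y := by rw [(cx.pow_left i).eq]; group

end H26.Top
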